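import Cfsg.Agent.Loc.JC5

/-! Components of a solvable parabolic subgroup, independent of the Sylow subgroup. -/

set_option autoImplicit false
set_option linter.unusedSectionVars false

namespace CF.QL

open Cfsg Subgroup CF.Loc
open CF.PLocal (maxAb mem_maxAb thompson_le le_thompson normalizer_le_normalizer_thompson)
open scoped commutatorElement

variable {G : Type*} [Group G] [Finite G] {A A' B J K K' L R S T U X Y : Subgroup G} {a g t u v w x y : G}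

theorem jc_cj (h : LL A) (hT : IsSyl 2 T A) (hK : JC 𝐉(T) K) (hKL : K ≤ A) (hg : g ∈ A) :
    JC 𝐉(T) (cj[g] K) := by
  have hJL : 𝐉(T) ≤ A := (thompson_le _ _).trans hT.le
  have e1 : ncl 𝐉(T) A ⊔ (A ⊓ 𝐍(𝐉(T))) = A := by
    have b := ncl_le_of_le hJL
    have c := le_normalizer_ncl 𝐉(T) A
    have := (hT.inf_of_le_normalizer b c).frattini_sup b c
    refine le_antisymm (sup_le b inf_le_left) (this.ge.trans (sup_le_sup_left ?_ _))
    exact inf_le_inf_left _ ((normalizer_le_normalizer_thompson 2 _).trans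
      (by rw [J_eq_of_le (le_inf (thompson_le _ _) (le_ncl 𝐉(T) A)) inf_le_left]))
  have hg' := e1.ge hg
  rw [sup_comm] at hg'
  obtain ⟨n, hn, e, he, rfl⟩ := (mem_sup_of_le_normalizer'
    (inf_le_left.trans (le_normalizer_ncl 𝐉(T) A))).1 hg'
  have : ncl 𝐉(T) A ≤ 𝐍(K) := by
    obtain ⟨A, hA, t, htA, ht, rfl⟩ := h.exists_eq_Kt hT hK hKL
    rw [ncl_le_iff]
    intro x hx
    rw [cj_J]
    exact h.J_le_normalizer_Kt (hT.cj_of_mem hx) ht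
  rw [cj_mul, cj_eq_self (this he), ← cj_eq_self hn.2]
  exact hK.cj n

/-- `K` is a component of `A` -/
structure Cp (A K : Subgroup G) : Prop where
  le : K ≤ A
  jc : ∀ S, IsSyl 2 S A → JC 𝐉(S) K

theorem cp_of (h : LL A) (hT : IsSyl 2 T A) (hK : JC 𝐉(T) K) (hKL : K ≤ A) : Cp A K :=
  ⟨hKL, fun S hS => by
    obtain ⟨g, hg, rfl⟩ := hT.conj hS
    have := (jc_cj h hT hK hKL (inv_mem hg)).cj g
    rwa [cj_cj_inv, cj_J] at this⟩

/-- the fixed points of `J(S)` in the four-group of `K` -/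
def om (K S : Subgroup G) : Subgroup G := wOf K ⊓ 𝐂(𝐉(S))

/-- the product of the four-groups -/
def wv (A : Subgroup G) : Subgroup G := ⨆ K : {K // Cp A K}, wOf K.1

theorem cj_om (g : G) (K S : Subgroup G) : cj[g] (om K S) = om (cj[g] K) (cj[g] S) := by
  rw [om, cj_inf, cj_wOf, cj_centralizer, cj_J, om]

theorem om_le (K S : Subgroup G) : om K S ≤ wOf K := inf_le_left

theorem wOf_ab (K : Subgroup G) : wOf K ≤ 𝐂(wOf K) := isElemAb_le_centralizer (isElemAb_wOf K)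

theorem wOf_two (K : Subgroup G) : IsPGroup 2 (wOf K) := isElemAb_isPGroup (isElemAb_wOf K)

theorem wOf_sq (hw : w ∈ wOf K) : w * w = 1 :=
  (pow_two w).symm.trans ((isElementaryAbelian_iff.1 (isElemAb_wOf K)).2 w hw)

theorem nW (K : Subgroup G) : K ≤ 𝐍(wOf K) := le_normalizer.trans (normalizer_le_normalizer_wOf K)

theorem mem_C_zp : x ∈ 𝐂(zpowers y) ↔ x * y = y * x := by
  rw [centralizer_zpowers, mem_centralizer_singleton_iff]

theorem comm_zp (hx : x ∈ 𝐍(U)) (hy : y ∈ 𝐍(U)) (h : ⁅x, y⁆ ∈ U) : ⁅zpowers x, zpowers y⁆ ≤ U := by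
  rw [← CF.BG.qt_cent_iff (zpowers_le.2 hx) (zpowers_le.2 hy), CF.BG.qt_zpowers hx, CF.BG.qt_zpowers hy,
    zpowers_le, mem_C_zp, ← commutatorElement_eq_one_iff_mul_comm, ← CF.BG.qe_comm hx hy]
  exact CF.BG.qe_of_mem h

namespace Cp
variable (k : Cp A K)
include k

theorem cj (g : G) : Cp (cj[g] A) (cj[g] K) :=
  ⟨cj_mono g k.le, fun S hS => by
    have := hS.cj g⁻¹
    rw [cj_inv_cj] at this
    have := (k.jc _ this).cj g
    rwa [cj_J, cj_cj_inv] at this⟩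

theorem cj_mem (hg : g ∈ A) : Cp A (cj[g] K) := by
  have := k.cj g
  rwa [cj_eq_self_of_mem hg] at this

theorem ex : ∃ S, IsSyl 2 S A ∧ JC 𝐉(S) K :=
  let ⟨S, hS⟩ := exists_isSyl 2 A; ⟨S, hS, k.jc S hS⟩

theorem k3 : K3 K := let ⟨_, _, h⟩ := k.ex; h.toK3
theorem card : Nat.card (wOf K) = 4 := let ⟨_, _, h⟩ := k.ex; h.card
theorem ne : wOf K ≠ ⊥ := let ⟨_, _, h⟩ := k.ex; h.wOf_ne_bot
theorem fix : wOf K ⊓ 𝐂(K) = ⊥ := k.k3.wOf_fixed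
theorem W_le : wOf K ≤ A := (wOf_le_self K).trans k.le
theorem O_le : 𝐎[2](K) ≤ A := (pCoreOf_le _ _).trans k.le
theorem le_wv : wOf K ≤ wv A := le_iSup (fun K : {K // Cp A K} => wOf K.1) ⟨K, k⟩
theorem eq_bot_or (h1 : U ≤ wOf K) (hn : K ≤ 𝐍(U)) : U = ⊥ ∨ U = wOf K :=
  let ⟨_, _, h⟩ := k.ex; h.eq_bot_or h1 hn
theorem inf_C_le : K ⊓ 𝐂(wOf K) ≤ 𝐎[2](K) := let ⟨_, _, h⟩ := k.ex; h.inf_C_le
theorem le_C (hR : IsPGroup 2 R) (hn : R ≤ 𝐍(K)) (hc : ⁅R, K⁆ ≤ 𝐎[2](K)) : R ≤ 𝐂(wOf K) :=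
  let ⟨_, _, h⟩ := k.ex; h.le_C_of_comm hR (hn.trans (normalizer_le_normalizer_wOf K)) hc
theorem comm_le (h1 : R ≤ 𝐍(K)) (hc : R ≤ 𝐂(wOf K)) : ⁅R, K⁆ ≤ 𝐎[2](K) :=
  let ⟨_, _, h⟩ := k.ex; h.comm_le_of_le_C h1 hc
theorem eq_one (hw : w ∈ wOf K) (hc : w ∈ 𝐂(K)) : w = 1 := mem_bot.1 (k.fix.le ⟨hw, hc⟩)

theorem mem_O (hx : x ∈ K) (hw : w ∈ wOf K) (w1 : w ≠ 1) (e : x * w = w * x) : x ∈ 𝐎[2](K) := by
  by_contra x0
  refine w1 (k.eq_one hw (zpowers_le.1 (le_centralizer_comm.1 ?_)))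
  rw [← k.k3.sup_eq (zpowers_le.2 hx) (by rwa [zpowers_le])]
  exact sup_le ((O_le_C_wOf K).trans (centralizer_anti (zpowers_le.2 hw))) (zpowers_le.2 (mem_C_zp.2 e))

theorem exists_x : ∃ x ∈ K, x ∉ 𝐎[2](K) := SetLike.not_le_iff_exists.1 k.k3.not_le_O

theorem comm_eq (hR : IsPGroup 2 R) (hn : R ≤ 𝐍(K)) (hc : ¬ R ≤ 𝐂(wOf K)) : ⁅K, R⁆ = K :=
  k.k3.eq_of_normal (commutator_le_left_of_le_normalizer hn) (CF.BG.norm_comm_left _ _)
    fun e => hc (k.le_C hR hn (by rwa [commutator_comm]))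

theorem comm_not_mem (hx : x ∈ K) (x0 : x ∉ 𝐎[2](K)) (ht : t ∈ 𝐍(K)) (h2 : IsPGroup 2 (zpowers t))
    (hc : t ∉ 𝐂(wOf K)) : ⁅x, t⁆ ∉ 𝐎[2](K) := fun e => by
  have nO := normalizer_le_normalizer_pCoreOf 2 K
  refine hc (zpowers_le.1 (k.le_C h2 (zpowers_le.2 ht) ?_))
  have : K ≤ secCent (zpowers t) 𝐎[2](K) := by
    nth_rewrite 1 [← k.k3.sup_eq (zpowers_le.2 hx) (by rwa [zpowers_le])]
    refine sup_le (le_secCent_iff.2 ⟨le_normalizer, commutator_le_right_of_le_normalizer (zpowers_le.2 (nO ht))⟩)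
      (zpowers_le.2 ⟨nO (le_normalizer hx), ?_⟩)
    have : ⁅zpowers t, zpowers x⁆ ≤ 𝐎[2](K) := comm_zp (nO ht) (nO (le_normalizer hx))
      (commutatorElement_inv x t ▸ inv_mem e)
    exact fun v hv => this (commutator_mem_commutator hv (mem_zpowers x))
  exact (le_secCent_iff.1 this).2

section
variable (hS : IsSyl 2 S A)
include hS

theorem J_le : 𝐉(S) ≤ 𝐍(K) := (k.jc S hS).le_normalizer
theorem W_le_J : wOf K ≤ 𝐉(S) := (k.jc S hS).wOf_le_J (isPGroup_J hS.isPGroup)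
theorem card_om : Nat.card (om K S) = 2 := (k.jc S hS).card_W_inf (isPGroup_J hS.isPGroup)
theorem om_eq_Z : om K S = 𝐙(𝐉(S)) ⊓ wOf K := ((k.jc S hS).Z_inf_W (isPGroup_J hS.isPGroup)).symm
theorem om_eq (hu : u ∈ om K S) (hv : v ∈ om K S) (u1 : u ≠ 1) (v1 : v ≠ 1) : u = v :=
  eq_of_card_two (k.card_om hS) hu hv u1 v1

theorem exists_om : ∃ u ∈ om K S, u ≠ 1 := by
  have : om K S ≠ ⊥ := fun e => by have := k.card_om hS; rw [e, card_bot] at this; omega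
  obtain ⟨⟨u, hu⟩, u1⟩ := ne_bot_iff_exists_ne_one.1 this
  exact ⟨u, hu, fun e => u1 (Subtype.ext e)⟩

theorem om_le_of (hu : u ∈ om K S) (u1 : u ≠ 1) (hX : u ∈ X) : om K S ≤ X := fun v hv => by
  by_cases v1 : v = 1
  · exact v1 ▸ one_mem X
  · exact k.om_eq hS hu hv u1 v1 ▸ hX

theorem om_eq_N : om K S = wOf K ⊓ 𝐂(S ⊓ 𝐍(K)) := by
  have l : 𝐉(S) ≤ S ⊓ 𝐍(K) := le_inf (thompson_le _ _) (k.J_le hS)
  refine (eq_of_le_of_card_le (inf_le_inf_left _ (centralizer_anti l)) ?_).symm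
  rw [(card_inf_cent_four k.card (hS.isPGroup.to_le inf_le_left) (inf_le_right.trans
    (normalizer_le_normalizer_wOf K)) fun e => (k.jc S hS).not_J_le_C (l.trans e)).1]
  exact (k.card_om hS).le

theorem le_C_om (h1 : R ≤ S) (h2 : R ≤ 𝐍(K)) : R ≤ 𝐂(om K S) := by
  rw [k.om_eq_N hS]; exact (le_inf h1 h2).trans (le_centralizer_comm.1 inf_le_right)

theorem comm_le_om (h1 : R ≤ S) (h2 : R ≤ 𝐍(K)) : ⁅wOf K, R⁆ ≤ om K S := by
  have n := h2.trans (normalizer_le_normalizer_wOf K)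
  refine commutator_le_of_relIndex_two ?_ ((k.le_C_om hS h1 h2).trans (centralizer_le_normalizer _)) n
  have := card_mul_relIndex (om_le K S)
  rw [k.card_om hS, k.card] at this
  omega

theorem inf_C_eq (h1 : R ≤ S) (h2 : R ≤ 𝐍(K)) (hc : ¬ R ≤ 𝐂(wOf K)) : wOf K ⊓ 𝐂(R) = om K S := by
  refine (eq_of_le_of_card_le (le_inf (om_le _ _) (le_centralizer_comm.1 (k.le_C_om hS h1 h2))) ?_).symm
  rw [(card_inf_cent_four k.card (hS.isPGroup.to_le h1) (h2.trans (normalizer_le_normalizer_wOf K)) hc).1]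
  exact (k.card_om hS).ge

theorem mem_om (ht : t ∈ S) (h2 : t ∈ 𝐍(K)) (hc : t ∉ 𝐂(wOf K)) (hw : w ∈ wOf K) (e : w * t = t * w) :
    w ∈ om K S :=
  (k.inf_C_eq hS (zpowers_le.2 ht) (zpowers_le.2 h2) (by rwa [zpowers_le])).le ⟨hw, mem_C_zp.2 e⟩

/-- an element of `Z(J)` is `c` or `c u` with `c` centralising `K` -/
theorem Z_dec (hv : v ∈ 𝐙(𝐉(S))) : ∃ c ∈ 𝐂(K), ∃ w ∈ om K S, v = c * w := by
  have := ((k.jc S hS).main_Z (isPGroup_J hS.isPGroup)).2 hv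
  rw [← k.om_eq_Z hS, sup_comm] at this
  obtain ⟨w, hw, c, hc, e⟩ := (mem_sup_of_le_normalizer (inf_le_right.trans (centralizer_le_normalizer_of_le
    ((om_le K S).trans (wOf_le_self K))))).1 this
  exact ⟨c, hc.2, w, hw, by rw [← e]; exact hc.2 w (wOf_le_self K hw.1)⟩

end

section
variable (h : LL A)
include h

theorem W_le_V : wOf K ≤ 𝐕(A) := let ⟨_, hS, j⟩ := k.ex; h.wOf_le_V hS j k.le
theorem O_le_O : 𝐎[2](K) ≤ 𝐎[2](A) :=
  let ⟨_, hS, j⟩ := k.ex; (h.sn hS j k.le).pCoreOf_eq.le.trans inf_le_right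
theorem dich (k' : Cp A K') : K = K' ∨ wOf K ≤ 𝐂(K') :=
  let ⟨S, hS, j⟩ := k.ex; h.dichot hS j k.le (k'.jc S hS) k'.le
theorem W_le_C (k' : Cp A K') (e : K ≠ K') : wOf K ≤ 𝐂(K') := (k.dich h k').resolve_left e
theorem norm (k' : Cp A K') : K ≤ 𝐍(K') := let ⟨S, hS, j⟩ := k.ex; h.le_normalizer hS j k.le (k'.jc S hS) k'.le
theorem eq_of (k' : Cp A K') (hw : w ∈ wOf K) (hw' : w ∈ wOf K') (w1 : w ≠ 1) : K = K' :=
  (k.dich h k').resolve_right fun e => w1 (k'.eq_one hw' (e hw))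
theorem O_le_C : 𝐎[2](A) ≤ 𝐂(wOf K) :=
  (le_centralizer_omegaOneCenter 2 _).trans (centralizer_anti (k.W_le_V h))
theorem mem_N (hg : g ∈ A) (hw : w ∈ wOf K) (w1 : w ≠ 1) (e : g * w = w * g) : g ∈ 𝐍(K) := by
  rw [← cj_eq_self_iff]
  refine (k.cj_mem hg).eq_of h k ?_ hw w1
  rw [← cj_wOf, ← show g * w * g⁻¹ = w by rw [e, mul_inv_cancel_right]]
  exact conj_mem_cj g hw
theorem le_N (hX : X ≤ A) (hw : w ∈ wOf K) (w1 : w ≠ 1) (e : w ∈ 𝐂(X)) : X ≤ 𝐍(K) :=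
  fun g hg => k.mem_N h (hX hg) hw w1 (e g hg)
theorem le_N' (hX : X ≤ A) (e : X ≤ 𝐂(wOf K)) : X ≤ 𝐍(K) := by
  obtain ⟨⟨u, hu⟩, u1⟩ := ne_bot_iff_exists_ne_one.1 k.ne
  exact k.le_N h hX hu (fun e => u1 (Subtype.ext e)) (le_centralizer_comm.1 e hu)
theorem O_le_N : 𝐎[2](A) ≤ 𝐍(K) := k.le_N' h (pCoreOf_le _ _) (k.O_le_C h)

end

/-- generation and commutator lemma -/
theorem gen (hx : x ∈ K) (x0 : x ∉ 𝐎[2](K)) (ha : a ∈ 𝐍(K)) (h2 : IsPGroup 2 (zpowers a)) (hc : a ∉ 𝐂(wOf K))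
    (hU : U ≤ 𝐍(wOf K)) (n1 : 𝐎[2](K) ≤ 𝐍(U)) (n2 : x * a * x⁻¹ ∈ 𝐍(U)) (c : ⁅U, zpowers a⁆ ≤ wOf K) :
    ⁅U, K⁆ ≤ wOf K ∧ (⁅U, 𝐎[2](K)⁆ = ⊥ ∨ ⁅U, 𝐎[2](K)⁆ = wOf K) := by
  have nWa := normalizer_le_normalizer_wOf K ha
  have c' : ⁅U ⊔ wOf K, zpowers a⁆ ≤ wOf K := commutator_sup_left_le hU le_normalizer c
    (commutator_le_left_of_le_normalizer (zpowers_le.2 nWa))
  have na : a ∈ 𝐍(U ⊔ wOf K) := zpowers_le.1 (le_normalizer_of_commutator_le le_rfl (c'.trans le_sup_right))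
  have nt : x * a * x⁻¹ ∈ 𝐍(U ⊔ wOf K) := zpowers_le.1 (le_normalizer_sup (zpowers_le.2 n2)
    (zpowers_le.2 (mul_mem (mul_mem (nW K hx) nWa) (inv_mem (nW K hx)))))
  have nK : K ≤ 𝐍(U ⊔ wOf K) := by
    have m : ⁅x, a⁆ ∈ K := by
      rw [commutatorElement_def, mul_assoc, mul_assoc, ← mul_assoc a]
      exact mul_mem hx (conj_mem_of_mem_normalizer ha (inv_mem hx))
    nth_rewrite 1 [← k.k3.sup_eq (zpowers_le.2 m) (by rw [zpowers_le]; exact k.comm_not_mem hx x0 ha h2 hc)]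
    exact sup_le (le_normalizer_sup n1 ((pCoreOf_le _ _).trans (nW K)))
      (zpowers_le.2 (mul_mem nt (inv_mem na)))
  have c1 : ⁅U ⊔ wOf K, K⁆ ≤ wOf K := by
    refine (le_secCent_iff.1 ?_).2
    nth_rewrite 1 [← k.comm_eq h2 (zpowers_le.2 ha) (by rwa [zpowers_le])]
    exact commutator_le_of_le_of_normalizes (le_secCent_iff.2 ⟨zpowers_le.2 nWa, c'⟩)
      (le_normalizer_secCent nK (nW K))
  refine ⟨(commutator_mono le_sup_left le_rfl).trans c1, k.eq_bot_or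
    ((commutator_mono le_sup_left (pCoreOf_le _ _)).trans c1) ?_⟩
  have e : ⁅U ⊔ wOf K, 𝐎[2](K)⁆ = ⁅U, 𝐎[2](K)⁆ :=
    le_antisymm (commutator_sup_left_le (CF.BG.norm_comm_left _ _) ((wOf_le_O K).trans (CF.BG.norm_comm_right _ _))
      le_rfl ((commutator_eq_bot_iff_le_centralizer'.2 (O_le_C_wOf K)).le.trans bot_le))
      (commutator_mono le_sup_left le_rfl)
  rw [← e]; exact le_normalizer_commutator nK (le_normalizer_pCoreOf _ _)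

end Cp

theorem wv_le (h : ∀ K, Cp A K → wOf K ≤ X) : wv A ≤ X := iSup_le fun K => h K.1 K.2

theorem cj_wv (g : G) (A : Subgroup G) : cj[g] (wv A) = wv (cj[g] A) := by
  have key : ∀ (g : G) (A : Subgroup G), cj[g] (wv A) ≤ wv (cj[g] A) := fun g A =>
    cj_le_iff.2 (wv_le fun K k => cj_le_iff.1 ((cj_wOf g K).le.trans (k.cj g).le_wv))
  refine le_antisymm (key g A) (le_cj_iff.2 ?_)
  simpa only [cj_inv_cj] using key g⁻¹ (cj[g] A)

theorem n_wv (A : Subgroup G) : A ≤ 𝐍(wv A) := fun g hg => by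
  rw [← cj_eq_self_iff, cj_wv, cj_eq_self_of_mem hg]

theorem wv_le_V (h : LL A) : wv A ≤ 𝐕(A) := wv_le fun _ k => k.W_le_V h
theorem wv_le_O (h : LL A) : wv A ≤ 𝐎[2](A) := (wv_le_V h).trans (omegaOneCenter_le _ _)
theorem O_le_C_wv (h : LL A) : 𝐎[2](A) ≤ 𝐂(wv A) :=
  (le_centralizer_omegaOneCenter 2 _).trans (centralizer_anti (wv_le_V h))
theorem wv_two (h : LL A) : IsPGroup 2 (wv A) := (isPGroup_pCoreOf 2 A).to_le (wv_le_O h)
theorem le_C_wv (h : ∀ K, Cp A K → X ≤ 𝐂(wOf K)) : X ≤ 𝐂(wv A) :=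
  le_centralizer_comm.1 (wv_le fun K k => le_centralizer_comm.1 (h K k))

theorem ll_cj (h : LL A) (g : G) : LL (cj[g] A) := by
  refine ⟨CF.BG.Sol.map h.sol _, ?_, fun R a b => ?_, fun R a b => ?_⟩
  · rw [← cj_pCoreOf, ← cj_centralizer]; exact cj_mono g h.char
  · have := cj_mono g (h.inf _ (le_cj_iff.1 a) (isPGroup_cj g⁻¹ b))
    rwa [cj_inf, cj_cj_inv, cj_centralizer, cj_omegaOneCenter, cj_pCoreOf] at this
  · have := cj_mono g (h.comm _ (le_cj_iff.1 a) (isPGroup_cj g⁻¹ b))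
    rwa [cj_commutator, cj_inf, cj_cj_inv, cj_centralizer, cj_omegaOneCenter, cj_pCoreOf] at this

/-- a vertex group -/
structure VT (A : Subgroup G) : Prop where
  ll : LL A
  ex : ∃ K, Cp A K
  two : ∀ K₁ K₂ K₃, Cp A K₁ → Cp A K₂ → Cp A K₃ → K₁ ≠ K₂ → K₃ ≠ K₂ → K₁ = K₃
  tr : ∀ S, IsSyl 2 S A → ∀ K K', Cp A K → Cp A K' → ∃ s ∈ S, cj[s] K = K'
  gen : ∀ S, IsSyl 2 S A → ∀ X, S ≤ X → (∀ K, Cp A K → K ≤ X) → A ≤ X

namespace VT
variable (h : VT A)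
include h

theorem cj (g : G) : VT (cj[g] A) := by
  have c : ∀ {K}, Cp (cj[g] A) K → Cp A (cj[g⁻¹] K) := fun k => by simpa only [cj_inv_cj] using k.cj g⁻¹
  have d : ∀ {S}, IsSyl 2 S (cj[g] A) → IsSyl 2 (cj[g⁻¹] S) A := fun k => by simpa only [cj_inv_cj] using k.cj g⁻¹
  refine ⟨ll_cj h.ll g, h.ex.elim fun K k => ⟨_, k.cj g⟩, fun K₁ K₂ K₃ a b e f f' =>
    cj_inj.1 (h.two _ _ _ (c a) (c b) (c e) (fun e => f (cj_inj.1 e)) fun e => f' (cj_inj.1 e)),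
    fun S hS K K' a b => ?_, fun S hS X l k => cj_le_iff.2 (h.gen _ (d hS) _ (cj_mono _ l) fun K a =>
      cj_le_iff.1 (k _ (a.cj g)))⟩
  obtain ⟨s, hs, e⟩ := h.tr _ (d hS) _ _ (c a) (c b)
  refine ⟨g * s * g⁻¹, by simpa [mul_assoc] using mem_cj.1 hs, ?_⟩
  rw [cj_mul, cj_mul, e, cj_cj_inv]

theorem mul_mem_N (k : Cp A K) (hu : u ∈ A) (hv : v ∈ A) (u0 : u ∉ 𝐍(K)) (v0 : v ∉ 𝐍(K)) : u⁻¹ * v ∈ 𝐍(K) := by
  rw [← cj_eq_self_iff] at u0 v0 ⊢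
  rw [cj_mul, h.two _ _ _ (k.cj_mem hv) k (k.cj_mem hu) v0 u0, cj_inv_cj]

/-- a `2`-subgroup centralising all four-groups lies in `O₂` -/
theorem le_O (h1 : X ≤ A) (h2 : IsPGroup 2 X) (hc : ∀ K, Cp A K → X ≤ 𝐂(wOf K)) : X ≤ 𝐎[2](A) := by
  obtain ⟨S, hS, l⟩ := exists_isSyl_ge h2 h1
  have o := hS.pCoreOf_le
  have l2 : 𝐎[2](A) ≤ S ⊓ 𝐂(wv A) := le_inf o (O_le_C_wv h.ll)
  refine (le_inf l (le_C_wv hc)).trans (le_pCoreOf (hS.isPGroup.to_le inf_le_left) (inf_le_left.trans hS.le)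
    (h.gen S hS _ (le_normalizer_inf le_normalizer (le_normalizer_centralizer (hS.le.trans (n_wv A))))
      fun K k => le_normalizer_of_commutator_le le_rfl ?_))
  have c := inf_le_right.trans (centralizer_anti k.le_wv) (a := S ⊓ 𝐂(wv A))
  exact ((k.comm_le (k.le_N' h.ll (inf_le_left.trans hS.le) c) c).trans (k.O_le_O h.ll)).trans l2

theorem exists_not (h1 : X ≤ A) (h2 : IsPGroup 2 X) (hc : ¬ X ≤ 𝐎[2](A)) : ∃ K, Cp A K ∧ ¬ X ≤ 𝐂(wOf K) := by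
  by_contra! e
  exact hc (h.le_O h1 h2 e)

theorem dec (k : Cp A K) (k' : Cp A K') (e : K ≠ K') (hS : IsSyl 2 S A) (hg : g ∈ A) :
    ∃ x ∈ K, ∃ y ∈ K', ∃ s ∈ S, g = x * y * s := by
  have n : S ≤ 𝐍(K ⊔ K') := fun s hs => mem_normalizer_of_cj_le (by
    have : ∀ L, Cp A L → L ≤ K ⊔ K' := fun L l => by
      by_cases e' : L = K'
      · exact e'.le.trans le_sup_right
      · exact (h.two _ _ _ l k' k e' e).le.trans le_sup_left
    rw [cj_sup]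
    exact sup_le (this _ (k.cj_mem (hS.le hs))) (this _ (k'.cj_mem (hS.le hs))))
  have := h.gen S hS (K ⊔ K' ⊔ S) le_sup_right (fun L l => by
    by_cases e' : L = K'
    · exact e'.le.trans (le_sup_right.trans le_sup_left)
    · exact (h.two _ _ _ l k' k e' e).le.trans (le_sup_left.trans le_sup_left)) hg
  obtain ⟨z, hz, s, hs, rfl⟩ := (mem_sup_of_le_normalizer n).1 this
  obtain ⟨x, hx, y, hy, rfl⟩ := (mem_sup_of_le_normalizer (k'.norm h.ll k)).1 hz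
  exact ⟨x, hx, y, hy, s, hs, rfl⟩

/-- four-groups of components of two vertices lying in the other vertex normalise each other -/
theorem crit_norm (h' : VT A') (k : Cp A K) (k' : Cp A' K') (l : wOf K ≤ A') (l' : wOf K' ≤ A) :
    wOf K ≤ 𝐍(K') := fun a ha => by
  by_contra a0
  have nc : ∀ w ∈ wOf K', w ≠ 1 → a * w ≠ w * a := fun w hw w1 e => a0 (k'.mem_N h'.ll (l ha) hw w1 e)
  by_cases c : wOf K' ≤ 𝐍(K)
  · have := card_le_two_mul_cent_four k.card (wOf_ab K) (wOf_two K') (c.trans (normalizer_le_normalizer_wOf K))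
    have ne : wOf K' ⊓ 𝐂(wOf K) ≠ ⊥ := fun e => by rw [e, card_bot, k'.card] at this; omega
    obtain ⟨⟨u, hu⟩, u1⟩ := ne_bot_iff_exists_ne_one.1 ne
    exact nc u hu.1 (fun e => u1 (Subtype.ext e)) (hu.2 a ha)
  obtain ⟨w, hw, w0⟩ := SetLike.not_le_iff_exists.1 c
  obtain ⟨u, hu, u1, un⟩ : ∃ u ∈ wOf K', u ≠ 1 ∧ u ∈ 𝐍(K) := by
    obtain ⟨v, hv, v0⟩ : ∃ v ∈ wOf K', v ∉ zpowers w := SetLike.not_le_iff_exists.1 fun e => by
      have := card_le_card_of_le e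
      rw [k'.card, Nat.card_zpowers] at this
      have := orderOf_le_of_pow_eq_one two_pos ((pow_two w).trans (wOf_sq hw))
      omega
    by_cases c : v ∈ 𝐍(K)
    · exact ⟨v, hv, fun e => v0 (e ▸ one_mem _), c⟩
    · exact ⟨_, mul_mem (inv_mem hw) hv, fun e => v0 (inv_mul_eq_one.1 e ▸ mem_zpowers w),
        h.mul_mem_N k (l' hw) (l' hv) w0 c⟩
  have m : ⁅a, u⁆ ∈ wOf K := commutator_le_left_of_le_normalizer
    (zpowers_le.2 (normalizer_le_normalizer_wOf K un)) (commutator_mem_commutator ha (mem_zpowers u))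
  have m' : ⁅a, u⁆ ∈ 𝐕(A') := commutator_le_right_of_le_normalizer (zpowers_le.2 (le_normalizer_V A' (l ha)))
    (commutator_mem_commutator (mem_zpowers a) (k'.W_le_V h'.ll hu))
  exact w0 (k.mem_N h.ll (l' hw) m (fun e => nc u hu u1 (commutatorElement_eq_one_iff_mul_comm.1 e))
    (isElemAb_le_centralizer (isElemAb_omegaOneCenter 2 _) m' w (k'.W_le_V h'.ll hw)))

end VT

end CF.QL
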