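import Cfsg.Agent.QL.B1

/-! The coset geometry of two solvable parabolic subgroups: critical walks and the shift lemma. -/

set_option autoImplicit false
set_option linter.unusedSectionVars false

namespace CF.QL

open Cfsg Subgroup CF.Loc
open CF.PLocal (thompson_le)
open scoped commutatorElement

variable {G : Type*} [Group G] [Finite G] {A A' B B' K K' L L' M M' N S U X : Subgroup G} {a c g u v w x y : G}
  {r : Subgroup G → Subgroup G → Prop} {f : ℕ → Subgroup G} {n m i j : ℕ}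

/-- the adjacency relation -/
structure Gr (r : Subgroup G → Subgroup G → Prop) : Prop where
  symm : ∀ A B, r A B → r B A
  vt : ∀ {A B}, r A B → VT A
  syl : ∀ {A B}, r A B → IsSyl 2 (A ⊓ B) A
  cj : ∀ {A B}, r A B → ∀ g, r (cj[g] A) (cj[g] B)
  nb : ∀ {A B B'}, r A B → r A B' → ∃ g ∈ A, cj[g] B = B'
  star : ∀ {A B K}, r A B → Cp A K → ¬ 𝐎[2](K) ≤ 𝐎[2](B)

def Far (r : Subgroup G → Subgroup G → Prop) (n : ℕ) : Prop := ∀ A B, Wk r n A B → (∃ C, r A C) → wv A ≤ 𝐎[2](B)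

def Walk (r : Subgroup G → Subgroup G → Prop) (f : ℕ → Subgroup G) (n : ℕ) : Prop := ∀ i < n, r (f i) (f (i + 1))

def sh (A : Subgroup G) (f : ℕ → Subgroup G) : ℕ → Subgroup G
  | 0 => A
  | i + 1 => f i

theorem Walk.wk (h : Walk r f n) (hij : i ≤ j) (hj : j ≤ n) (hm : j ≤ i + m) : Wk r m (f i) (f j) := by
  induction hij generalizing m with
  | refl => exact .refl _ _
  | @step k l ih =>
    obtain ⟨m, rfl⟩ : ∃ m', m = m' + 1 := ⟨m - 1, by have : i ≤ k := l; omega⟩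
    exact .step (ih (by omega) (by omega)) (h k (by omega))

theorem Walk.sh (h : Walk r f n) (e : r A (f 0)) : Walk r (sh A f) (n + 1) := fun i hi => by
  cases i with
  | zero => exact e
  | succ i => exact h i (by omega)

theorem Walk.mono (h : Walk r f n) (l : m ≤ n) : Walk r f m := fun i hi => h i (by omega)

/-- a critical walk -/
structure Cr (r : Subgroup G → Subgroup G → Prop) (f : ℕ → Subgroup G) (n : ℕ) (K K' : Subgroup G) : Prop where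
  w : Walk r f (n + 1)
  k : Cp (f 0) K
  k' : Cp (f (n + 1)) K'
  nc : ¬ wOf K ≤ 𝐂(wOf K')

namespace Gr
variable (γ : Gr r)
include γ

theorem syl' (e : r A B) : IsSyl 2 (A ⊓ B) B := inf_comm B A ▸ γ.syl (γ.symm _ _ e)
theorem O_le (e : r A B) : 𝐎[2](A) ≤ B := (γ.syl e).pCoreOf_le.trans inf_le_right
theorem cj_l (e : r A B) (hg : g ∈ A) : r A (cj[g] B) := by
  have := γ.cj e g
  rwa [cj_eq_self_of_mem hg] at this
theorem ll (e : r A B) : LL A := (γ.vt e).ll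

variable (F : Far r n)
include F

theorem far (e : r A B) (w : Wk r m A A') (l : m ≤ n) : wv A ≤ 𝐎[2](A') := F _ _ (w.mono l) ⟨_, e⟩

theorem farC (e : r A B) (e' : r A' B') (w : Wk r m A A') (l : m ≤ n) (k : Cp A K) (k' : Cp A' K') :
    wOf K ≤ 𝐂(wOf K') := (k.le_wv.trans (γ.far F e w l)).trans (k'.O_le_C (γ.ll e'))

section
variable (κ : Cr r f n K K')
include κ

theorem e0 : r (f 0) (f 1) := κ.w 0 (by omega)
theorem en : r (f (n + 1)) (f n) := γ.symm _ _ (κ.w n (by omega))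
theorem W_le : wOf K ≤ f (n + 1) ⊓ f n :=
  have := κ.k.le_wv.trans (γ.far F (γ.e0 F κ) (κ.w.wk (Nat.zero_le n) n.le_succ (by omega)) le_rfl)
  le_inf (this.trans (γ.O_le (κ.w n (by omega)))) (this.trans (pCoreOf_le _ _))
theorem W'_le_O : wOf K' ≤ 𝐎[2](f 1) :=
  κ.k'.le_wv.trans (γ.far F (γ.en F κ) ((κ.w.wk (by omega) le_rfl (by omega)).symm γ.symm) le_rfl)
theorem W'_le : wOf K' ≤ f 0 ⊓ f 1 :=
  le_inf ((γ.W'_le_O F κ).trans (γ.O_le (γ.symm _ _ (γ.e0 F κ)))) ((γ.W'_le_O F κ).trans (pCoreOf_le _ _))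
theorem W_N : wOf K ≤ 𝐍(K') := (γ.vt (γ.e0 F κ)).crit_norm (γ.vt (γ.en F κ)) κ.k κ.k'
  ((γ.W_le F κ).trans inf_le_left) ((γ.W'_le F κ).trans inf_le_left)
theorem W'_N : wOf K' ≤ 𝐍(K) := (γ.vt (γ.en F κ)).crit_norm (γ.vt (γ.e0 F κ)) κ.k' κ.k
  ((γ.W'_le F κ).trans inf_le_left) ((γ.W_le F κ).trans inf_le_left)
theorem comm_l : ⁅wOf K, wOf K'⁆ ≤ om K (f 0 ⊓ f 1) :=
  κ.k.comm_le_om (γ.syl (γ.e0 F κ)) (γ.W'_le F κ) (γ.W'_N F κ)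
theorem comm_r : ⁅wOf K, wOf K'⁆ ≤ om K' (f (n + 1) ⊓ f n) :=
  (commutator_comm _ _).le.trans (κ.k'.comm_le_om (γ.syl (γ.en F κ)) (γ.W_le F κ) (γ.W_N F κ))
theorem om_eq : om K (f 0 ⊓ f 1) = om K' (f (n + 1) ⊓ f n) := by
  obtain ⟨⟨u, hu⟩, u1⟩ := ne_bot_iff_exists_ne_one.1 fun e => κ.nc (commutator_eq_bot_iff_le_centralizer.1 e)
  replace u1 : u ≠ 1 := fun e => u1 (Subtype.ext e)
  exact le_antisymm (κ.k.om_le_of (γ.syl (γ.e0 F κ)) (γ.comm_l F κ hu) u1 (γ.comm_r F κ hu))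
    (κ.k'.om_le_of (γ.syl (γ.en F κ)) (γ.comm_r F κ hu) u1 (γ.comm_l F κ hu))
theorem om_le' : om K (f 0 ⊓ f 1) ≤ wOf K' := (γ.om_eq F κ).le.trans (om_le _ _)
theorem exists_a : ∃ a ∈ wOf K', a ∉ 𝐂(wOf K) := SetLike.not_le_iff_exists.1 fun e => κ.nc (le_centralizer_comm.1 e)
theorem mem_om (ha : a ∈ wOf K') (a0 : a ∉ 𝐂(wOf K)) (hw : w ∈ wOf K) (e : w * a = a * w) : w ∈ om K (f 0 ⊓ f 1) :=
  κ.k.mem_om (γ.syl (γ.e0 F κ)) (γ.W'_le F κ ha) (γ.W'_N F κ ha) a0 hw e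
theorem inf_C : wOf K ⊓ 𝐂(wOf K') = om K (f 0 ⊓ f 1) :=
  κ.k.inf_C_eq (γ.syl (γ.e0 F κ)) (γ.W'_le F κ) (γ.W'_N F κ) fun e => κ.nc (le_centralizer_comm.1 e)
theorem inf_C' : wOf K' ⊓ 𝐂(wOf K) = om K (f 0 ⊓ f 1) :=
  (κ.k'.inf_C_eq (γ.syl (γ.en F κ)) (γ.W_le F κ) (γ.W_N F κ) κ.nc).trans (γ.om_eq F κ).symm

variable (hx : x ∈ K) (x0 : x ∉ 𝐎[2](K))
include hx x0

theorem ex : r (cj[x] (f 1)) (f 0) := γ.symm _ _ (γ.cj_l (γ.e0 F κ) (κ.k.le hx))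

theorem S_eq : cj[x] (f 1) ⊓ f 0 = cj[x] (f 0 ⊓ f 1) := by
  rw [cj_inf, cj_eq_self_of_mem (κ.k.le hx), inf_comm]

/-- the fixed point of the shifted Sylow subgroup is moved by `W_{K'}` -/
theorem om_one (ha : a ∈ wOf K') (a0 : a ∉ 𝐂(wOf K)) (hw : w ∈ om K (cj[x] (f 1) ⊓ f 0)) (e : w * a = a * w) :
    w = 1 := by
  by_contra w1
  have h1 := γ.mem_om F κ ha a0 hw.1 e
  rw [γ.S_eq F κ hx x0, ← cj_eq_self_of_mem hx, ← cj_om, mem_cj] at hw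
  have := κ.k.om_eq (γ.syl (γ.e0 F κ)) hw h1 (fun e => w1 (by
    rw [show w = x * (x⁻¹ * w * x) * x⁻¹ by group, e]; group)) w1
  exact x0 (κ.k.mem_O hx h1.1 w1 (by nth_rewrite 1 [← this]; group))

theorem gen2 (hn : 1 ≤ n) (ha : a ∈ wOf K') (a0 : a ∉ 𝐂(wOf K)) (h1 : U ≤ wv (cj[x] (f 1))) (h2 : U ≤ 𝐎[2](f n))
    (n1 : 𝐎[2](K) ≤ 𝐍(U)) (n2 : x * a * x⁻¹ ∈ 𝐍(U)) :
    ⁅U, K⁆ ≤ wOf K ∧ (⁅U, 𝐎[2](K)⁆ = ⊥ ∨ ⁅U, 𝐎[2](K)⁆ = wOf K) := by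
  have c : U ≤ 𝐂(wOf K) :=
    (h1.trans (γ.far F (γ.ex F κ hx x0) (.single (γ.ex F κ hx x0)) hn)).trans (κ.k.O_le_C (γ.ll (γ.e0 F κ)))
  have l : U ≤ f (n + 1) ⊓ f n := le_inf (h2.trans (γ.O_le (κ.w n (by omega)))) (h2.trans (pCoreOf_le _ _))
  obtain ⟨u, hu, u1⟩ := κ.k.exists_om (γ.syl (γ.e0 F κ))
  refine κ.k.gen hx x0 (γ.W'_N F κ ha) ((wOf_two K').to_le (zpowers_le.2 ha)) a0
    (c.trans (centralizer_le_normalizer _)) n1 n2 ?_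
  rw [commutator_comm]
  exact ((commutator_mono (zpowers_le.2 ha) le_rfl).trans (κ.k'.comm_le_om (γ.syl (γ.en F κ)) l
    (κ.k'.le_N (γ.ll (γ.en F κ)) (l.trans inf_le_left) (γ.om_le' F κ hu) u1 (le_centralizer_comm.1 c hu.1)))).trans
      ((γ.om_eq F κ).ge.trans (om_le _ _))

theorem O_le_S : 𝐎[2](K) ≤ cj[x] (f 1) ⊓ f 0 :=
  (κ.k.O_le_O (γ.ll (γ.e0 F κ))).trans (γ.syl' (γ.ex F κ hx x0)).pCoreOf_le

theorem t_mem (ha : a ∈ wOf K') : x * a * x⁻¹ ∈ cj[x] (f 1) ⊓ f 0 :=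
  γ.S_eq F κ hx x0 ▸ conj_mem_cj x (γ.W'_le F κ ha)

/-- the shift lemma -/
theorem shift (hn : 1 ≤ n) :
    ∃ L L', Cr r (sh (cj[x] (f 1)) f) n L L' ∧ om L (cj[x] (f 1) ⊓ f 0) ≤ 𝐂(K) := by
  have e := γ.ex F κ hx x0
  have e' := γ.symm _ _ e
  obtain ⟨a, ha, a0⟩ := γ.exists_a F κ
  have w := (κ.w.mono n.le_succ).sh e
  have h1 : ¬ wv (cj[x] (f 1)) ≤ 𝐎[2](f n) := fun h2 => by
    rcases (γ.gen2 F κ hx x0 hn ha a0 le_rfl h2 ((γ.O_le_S F κ hx x0).trans (inf_le_left.trans (n_wv _)))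
      (n_wv _ (γ.t_mem F κ hx x0 ha).1)).2 with c | c
    · exact γ.star e' κ.k ((γ.vt e).le_O ((γ.O_le_S F κ hx x0).trans inf_le_left) (isPGroup_pCoreOf _ _) fun L l =>
        (commutator_eq_bot_iff_le_centralizer'.1 c).trans (centralizer_anti l.le_wv))
    · have l : wOf K ≤ wv (cj[x] (f 1)) := c.ge.trans (commutator_le_left_of_le_normalizer
        ((γ.O_le_S F κ hx x0).trans (inf_le_left.trans (n_wv _))))
      obtain ⟨L, k⟩ := (γ.vt e).ex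
      refine γ.star e k ((k.O_le_O (γ.ll e)).trans ((γ.vt e').le_O (γ.O_le e) (isPGroup_pCoreOf _ _) fun M m => ?_))
      obtain ⟨s, hs, rfl⟩ := (γ.vt e').tr _ (γ.syl' e) _ _ κ.k m
      exact (O_le_C_wv (γ.ll e)).trans (centralizer_anti
        ((cj_wOf _ _).ge.trans (cj_le_of_mem_normalizer (n_wv _ hs.1) l)))
  obtain ⟨m, rfl⟩ : ∃ m, n = m + 1 := ⟨n - 1, by omega⟩
  obtain ⟨L', l', c⟩ := (γ.vt (κ.w (m + 1) (by omega))).exists_not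
    ((γ.far F e (w.wk (Nat.zero_le (m + 1)) (by omega) (by omega)) le_rfl).trans (γ.O_le (κ.w m (by omega))))
      (wv_two (γ.ll e)) h1
  obtain ⟨L, l, c⟩ : ∃ L, Cp (cj[x] (f 1)) L ∧ ¬ wOf L ≤ 𝐂(wOf L') := by
    by_contra! d
    exact c (wv_le d)
  have κ' : Cr r (sh (cj[x] (f 1)) f) (m + 1) L L' := ⟨w, l, l', c⟩
  refine ⟨L, L', κ', fun v hv => ?_⟩
  obtain ⟨c, hc, w, hw, rfl⟩ := κ.k.Z_dec (γ.syl' e) ((l.om_eq_Z (γ.syl e)).le hv).1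
  have ca : a * (c * w) = c * w * a := γ.farC F (κ.w (m + 1) (by omega)) (γ.en F κ)
    (.single (κ.w (m + 1) (by omega))) hn l' κ.k' (γ.om_le' F κ' hv) a ha
  have na := γ.W'_N F κ ha
  have : a * w * a⁻¹ * w⁻¹ = 1 := κ.k.eq_one (mul_mem (conj_mem_of_mem_normalizer
    (normalizer_le_normalizer_wOf K na) hw.1) (inv_mem hw.1)) (by
      rw [show a * w * a⁻¹ * w⁻¹ = (a * c * a⁻¹)⁻¹ * (a * (c * w)) * a⁻¹ * w⁻¹ by group, ca,
        show (a * c * a⁻¹)⁻¹ * (c * w * a) * a⁻¹ * w⁻¹ = (a * c * a⁻¹)⁻¹ * c by group]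
      exact mul_mem (inv_mem (conj_mem_of_mem_normalizer (normalizer_le_normalizer_centralizer K na) hc)) hc)
  rw [γ.om_one F κ hx x0 ha a0 hw (by rw [mul_inv_eq_one, mul_inv_eq_iff_eq_mul] at this; exact this.symm), mul_one]
  exact hc

end

end Gr

end CF.QL
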