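import Cfsg.Agent.QL.B2

/-! The critical distance is neither two nor three. -/

set_option autoImplicit false
set_option linter.unusedSectionVars false

namespace CF.QL

open Cfsg Subgroup CF.Loc
open CF.PLocal (thompson_le)
open scoped commutatorElement

variable {G : Type*} [Group G] [Finite G] {A A' B B' K K' L L' M M' N S U X : Subgroup G} {a c g u v w x y : G}
  {r : Subgroup G → Subgroup G → Prop} {f : ℕ → Subgroup G} {n m i j : ℕ}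

theorem three (h : K3 K) (hu : u ∈ K) (hv : v ∈ K) (u0 : u ∉ 𝐎[2](K)) (v0 : v ∉ 𝐎[2](K))
    (e : u⁻¹ * v ∉ 𝐎[2](K)) : (u * u)⁻¹ * v ∈ 𝐎[2](K) := by
  classical
  have n := le_normalizer_pCoreOf 2 K
  have c : Nat.card (CF.BG.qt 𝐎[2](K) K) = 3 := (CF.BG.card_qt n).trans h.idx
  rw [← CF.BG.qe_eq_iff (n hu) (n hv)] at e
  rw [← CF.BG.qe_eq_one (n hu)] at u0
  rw [← CF.BG.qe_eq_one (n hv)] at v0
  rw [← CF.BG.qe_eq_iff (n (mul_mem hu hu)) (n hv), CF.BG.qe_mul (n hu) (n hu)]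
  have z := CF.BG.zpowers_eq_of_prime (c ▸ Nat.prime_three) (CF.BG.qe_mem_qt hu (n hu)) u0
  have m := CF.BG.qe_mem_qt hv (n hv)
  rw [← z, Nat.card_zpowers] at c
  rw [← z, mem_zpowers_iff_mem_range_orderOf, c, Finset.mem_image] at m
  obtain ⟨k, hk, ek⟩ := m
  rw [Finset.mem_range] at hk
  interval_cases k
  · exact (v0 (by rw [← ek, pow_zero])).elim
  · exact (e (by rw [← ek, pow_one])).elim
  · rw [← ek, pow_two]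

theorem conj_fix (h : x ∈ X) (hw : w ∈ 𝐂(X)) : x * w * x⁻¹ = w := by rw [hw x h, mul_inv_cancel_right]
theorem conj_fix' (h : x ∈ X) (hw : w ∈ 𝐂(X)) : x⁻¹ * w * x = w := by
  rw [mul_assoc, ← hw x h, inv_mul_cancel_left]

namespace Gr
variable (γ : Gr r)
include γ

theorem two (F : Far r 1) (κ : Cr r f 1 K K') : False := by
  obtain ⟨x, hx, x0⟩ := κ.k.exists_x
  obtain ⟨L, L', κ', hc⟩ := γ.shift F κ hx x0 le_rfl
  have e := γ.ex F κ hx x0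
  have e1 := κ.w 1 (by omega)
  have l : Cp (cj[x] (f 1)) L := κ'.k
  have l' : Cp (f 1) L' := κ'.k'
  have ol : om L (cj[x] (f 1) ⊓ f 0) ≤ wOf L' := (γ.om_le' F κ' :)
  obtain ⟨ρ, hρ, ρ1⟩ := l.exists_om (γ.syl e)
  have eL : L = cj[x] L' := l.eq_of (γ.ll e) (l'.cj x) hρ.1 (by
    rw [← cj_wOf, mem_cj, conj_fix' hx (hc hρ)]; exact ol hρ) ρ1
  obtain ⟨a, ha, a0⟩ := γ.exists_a F κ
  have ca : wOf L' ≤ 𝐂(wOf K') := γ.farC F e1 (γ.en F κ) (.single e1) le_rfl l' κ.k'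
  have na := γ.W'_N F κ ha
  have aN : a ∈ 𝐍(L') := l'.mem_N (γ.ll e1) (γ.W'_le F κ ha).2 (ol hρ) ρ1 (ca (ol hρ) a ha)
  have o := three κ.k.k3 hx (conj_mem_of_mem_normalizer na hx) x0
    (fun e => x0 ((mem_normalizer_iff.1 (normalizer_le_normalizer_pCoreOf 2 K na) x).2 e))
    (by simpa [commutatorElement_def, mul_assoc] using
      κ.k.comm_not_mem (inv_mem hx) (by rwa [inv_mem_iff]) na ((wOf_two K').to_le (zpowers_le.2 ha)) a0)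
  have oN := l'.mem_N (γ.ll e1) (γ.O_le (γ.e0 F κ) (κ.k.O_le_O (γ.ll (γ.e0 F κ)) o)) (ol hρ) ρ1
    (hc hρ _ (pCoreOf_le _ _ o))
  have eA : cj[a] L = cj[x] L := by
    rw [eL, ← cj_mul, show a * x = x * (x * ((x * x)⁻¹ * (a * x * a⁻¹) * a)) by group, cj_mul, cj_mul,
      cj_eq_self (mul_mem oN aN)]
  obtain ⟨c, hcL, c0⟩ := SetLike.not_le_iff_exists.1 κ'.nc
  have hu : x⁻¹ * (a * c * a⁻¹) * x ∈ wOf L := by
    rw [← mem_cj, cj_wOf, ← eA, ← cj_wOf]; exact conj_mem_cj a hcL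
  have hv : x⁻¹ * c * x ∈ wOf L' := by rw [← mem_cj, cj_wOf, ← eL]; exact hcL
  have v0 : x⁻¹ * c * x ∉ 𝐂(wOf L) := fun h => by
    have := conj_fix hx (hc ((γ.inf_C' F κ').le ⟨hv, h⟩))
    exact c0 (wOf_ab L' (by rwa [← this, show x * (x⁻¹ * c * x) * x⁻¹ = c by group] at hv))
  have z : ⁅a * c * a⁻¹, c⁆ = ⁅x⁻¹ * (a * c * a⁻¹) * x, x⁻¹ * c * x⁆ := by
    rw [← conj_fix hx (hc (γ.comm_l F κ' (commutator_mem_commutator hu hv)))]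
    simp only [commutatorElement_def]; group
  have z1 : ⁅a * c * a⁻¹, c⁆ ≠ 1 := fun h => by
    have m := γ.mem_om F κ' hv v0 hu (commutatorElement_eq_one_iff_mul_comm.1 (z ▸ h))
    have m' := conj_fix hx (hc m)
    rw [show x * (x⁻¹ * (a * c * a⁻¹) * x) * x⁻¹ = a * c * a⁻¹ by group] at m'
    rw [← m'] at m
    have := conj_fix' ha (ca (ol m))
    rw [show a⁻¹ * (a * c * a⁻¹) * a = c by group] at this
    exact c0 (wOf_ab L' (this ▸ ol m))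
  have e2 : ⁅a * c * a⁻¹, c⁆ = ⁅a, c * a * c⁻¹⁆ := by
    simp only [commutatorElement_def, mul_inv_rev, inv_inv, inv_eq_of_mul_eq_one_right (wOf_sq ha),
      inv_eq_of_mul_eq_one_right (wOf_sq hcL), mul_assoc]
  have c1 : c ∈ f 1 := γ.O_le (γ.e0 F κ) (γ.far F e (.single e) le_rfl (l.le_wv hcL))
  have m : c * a * c⁻¹ ∈ wOf (cj[c] K') := cj_wOf c K' ▸ conj_mem_cj c ha
  have κ2 : Cr r (sh (f 2) (sh (f 1) fun _ => cj[c] (f 2))) 1 K' (cj[c] K') :=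
    ⟨Walk.sh (Walk.sh (n := 0) (fun _ h => by omega) (γ.cj_l e1 c1)) (γ.symm _ _ e1), κ.k', κ.k'.cj c, fun h =>
      z1 (e2 ▸ commutatorElement_eq_one_iff_mul_comm.2 (h ha _ m).symm)⟩
  exact z1 (κ.k.eq_one (e2 ▸ ((γ.comm_l F κ2).trans ((γ.om_eq F κ).ge.trans (om_le _ _)))
    (commutator_mem_commutator ha m)) (z ▸ hc (γ.comm_l F κ' (commutator_mem_commutator hu hv))))

theorem other (F : Far r (m + 2)) (κ : Cr r f (m + 2) K K') (hx : x ∈ K) (x0 : x ∉ 𝐎[2](K))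
    (κ₁ : Cr r (sh (cj[x] (f 1)) f) (m + 2) L L') :
    ∃ y ∈ L, y ∉ 𝐎[2](L) ∧ ∃ N M', Cp (f 0) N ∧ N ≠ K ∧
      Cr r (sh (cj[y] (f 0)) (sh (cj[x] (f 1)) f)) (m + 2) (cj[y] N) M' ∧
        om N (cj[x] (f 1) ⊓ f 0) ≤ 𝐂(L) ∧ om N (cj[x] (f 1) ⊓ f 0) ≤ wOf M' := by
  obtain ⟨y, hy, y0⟩ := κ₁.k.exists_x
  obtain ⟨M, M', κ₂, hc⟩ := γ.shift F κ₁ hy y0 (by omega)
  change om M (cj[y] (f 0) ⊓ cj[x] (f 1)) ≤ _ at hc
  have k : Cp (f 0) (cj[y⁻¹] M) := by simpa only [sh, cj_inv_cj] using κ₂.k.cj y⁻¹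
  have l : om (cj[y⁻¹] M) (cj[x] (f 1) ⊓ f 0) ≤ om M (cj[y] (f 0) ⊓ cj[x] (f 1)) := fun v hv => by
    have := conj_mem_cj y hv
    rw [cj_om, cj_cj_inv, cj_inf, cj_eq_self_of_mem (H := cj[x] (f 1)) (κ₁.k.le hy), inf_comm] at this
    have e := conj_fix' hy (hc this)
    rwa [← e, show y⁻¹ * (y * v * y⁻¹) * y = v by group] at this
  have l' := l.trans (γ.om_le' F κ₂ :)
  refine ⟨y, hy, y0, _, M', k, fun e => ?_, by rw [cj_cj_inv]; exact κ₂, l.trans hc, l'⟩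
  obtain ⟨a, ha, a0⟩ := γ.exists_a F κ
  obtain ⟨ρ, hρ, ρ1⟩ := k.exists_om (γ.syl' (γ.ex F κ hx x0))
  exact ρ1 (γ.om_one F κ hx x0 ha a0 (e ▸ hρ) (γ.farC F (κ.w (m + 1) (by omega)) (γ.en F κ)
    (κ.w.wk (m := 2) (by omega) le_rfl (by omega)) (by omega) κ₂.k' κ.k' (l' hρ) a ha).symm)

theorem om_back (F : Far r n) (κ : Cr r f n K K') (hx : x ∈ K) (x0 : x ∉ 𝐎[2](K)) (hn : x ∈ 𝐍(N)) (hv : v ∈ 𝐂(K)) :
    v ∈ om N (cj[x] (f 1) ⊓ f 0) ↔ v ∈ om N (f 0 ⊓ f 1) := by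
  rw [γ.S_eq F κ hx x0]
  nth_rewrite 1 [← cj_eq_self hn]
  rw [← cj_om, mem_cj, conj_fix' hx hv]

theorem om_back' (F : Far r n) (κ : Cr r f n K K') (hx : x ∈ K) (x0 : x ∉ 𝐎[2](K)) (hv : v ∈ 𝐂(K)) :
    v ∈ om N (cj[x] (f 1) ⊓ f 0) ↔ v ∈ om (cj[x⁻¹] N) (f 0 ⊓ f 1) := by
  rw [γ.S_eq F κ hx x0]
  nth_rewrite 1 [← cj_cj_inv x N]
  rw [← cj_om, mem_cj, conj_fix' hx hv]

theorem three' (F : Far r 2) (κ : Cr r f 2 K K') : False := by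
  obtain ⟨x, hx, x0⟩ := κ.k.exists_x
  obtain ⟨L, L', κ₁, hc⟩ := γ.shift F κ hx x0 (by omega)
  obtain ⟨y, hy, y0, N, M', k, ne, κ₂, c, l⟩ := γ.other (m := 0) F κ hx x0 κ₁
  have e := γ.e0 F κ
  have e' := γ.symm _ _ e
  have m' : Cp (f 1) M' := κ₂.k'
  have l₁ : Cp (f 1) (cj[x⁻¹] L) := by simpa only [sh, cj_inv_cj] using κ₁.k.cj x⁻¹
  obtain ⟨ρ, hρ, ρ1⟩ := k.exists_om (γ.syl' (γ.ex F κ hx x0))
  have cK := k.W_le_C (γ.ll e) κ.k ne hρ.1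
  have h1 := (γ.om_back F κ hx x0 (κ.k.norm (γ.ll e) k hx) cK).1 hρ
  have h2 : ρ ∈ om M' (f 0 ⊓ f 1) := ⟨l hρ, h1.2⟩
  have ne' : cj[x⁻¹] L ≠ M' := fun h => ρ1 (m'.eq_one h2.1 (by
    rw [← h, ← cj_centralizer, mem_cj, inv_inv, conj_fix hx cK]; exact c hρ))
  obtain ⟨s, hs, es⟩ := (γ.vt e).tr _ (γ.syl e) _ _ k κ.k
  have s1 : s * ρ * s⁻¹ ≠ 1 := by simpa using ρ1
  have h3 : s * ρ * s⁻¹ ∈ wOf K := by rw [← es, ← cj_wOf]; exact conj_mem_cj s h1.1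
  have h4 := conj_mem_cj s h2
  rw [cj_om, cj_eq_self_of_mem hs] at h4
  by_cases d : cj[s] M' = M'
  · rw [d] at h4
    exact ne (k.eq_of (γ.ll e) κ.k h1.1 (m'.om_eq (γ.syl' e) h4 h2 s1 ρ1 ▸ h3) ρ1)
  rw [(γ.vt e').two _ _ _ (m'.cj_mem hs.2) m' l₁ d ne'] at h4
  have h5 := conj_mem_cj x h4
  rw [cj_om, cj_cj_inv, ← γ.S_eq F κ hx x0] at h5
  have := conj_fix' hx (hc h5)
  rw [show x⁻¹ * (x * (s * ρ * s⁻¹) * x⁻¹) * x = s * ρ * s⁻¹ by group] at this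
  exact s1 (κ.k.eq_one h3 (this ▸ hc h5))

theorem big (F : Far r (m + 3)) (κ : Cr r f (m + 3) K K') (hx : x ∈ K) (x0 : x ∉ 𝐎[2](K))
    (κ₁ : Cr r (sh (cj[x] (f 1)) f) (m + 3) L L') : om K (cj[x] (f 1) ⊓ f 0) ≤ 𝐂(L) ∧ m = 0 := by
  obtain ⟨y, hy, y0, N, M', k, ne, κ₂, -, -⟩ := γ.other (m := m + 1) F κ hx x0 κ₁
  obtain ⟨z, hz, z0⟩ := κ₂.k.exists_x
  obtain ⟨L₃, L₃', κ₃, -⟩ := γ.shift F κ₂ hz z0 (by omega)
  obtain ⟨y₃, -, -, N₂, M'', k₂, ne₂, κ₄, -, l⟩ := γ.other (m := m + 1) F κ₂ hz z0 κ₃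
  have e := γ.ex F κ hx x0
  have e₂ := γ.e0 F κ₂
  have m'' : Cp (f m) M'' := κ₄.k'
  have l' : Cp (f (m + 3)) L' := κ₁.k'
  have lL : Cp (cj[x] (f 1)) L := κ₁.k
  obtain rfl : N₂ = cj[y] K := (γ.vt e₂).two _ _ _ k₂ κ₂.k (κ.k.cj y) ne₂ fun h => ne (cj_inj.1 h).symm
  have h1 : ∀ ρ ∈ om K (cj[x] (f 1) ⊓ f 0), y * ρ * y⁻¹ ∈ wOf M'' := fun ρ hρ => by
    have := conj_mem_cj y hρ
    rw [cj_om, cj_inf, cj_eq_self_of_mem (lL.le hy), inf_comm] at this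
    exact l ((γ.om_back F κ₂ hz z0 (κ₂.k.norm (γ.ll e₂) k₂ hz) (k₂.W_le_C (γ.ll e₂) κ₂.k ne₂ this.1)).2 this)
  have h2 : om K (cj[x] (f 1) ⊓ f 0) ≤ 𝐂(L) := fun ρ hρ => by
    obtain ⟨c, hc, w, hw, rfl⟩ := lL.Z_dec (γ.syl e) ((κ.k.om_eq_Z (γ.syl' e)).le hρ).1
    have a1 := γ.farC F (κ.w m (by omega)) (κ.w (m + 3) (by omega))
      (κ.w.wk (m := 3) (by omega) (by omega) le_rfl) (by omega) m'' l' (h1 _ hρ)
    have a2 := γ.farC F (γ.e0 F κ) (κ.w (m + 3) (by omega))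
      (κ.w.wk (m := m + 3) (by omega) (by omega) (by omega)) le_rfl κ.k l' hρ.1
    have a3 := mul_mem (inv_mem a2) a1
    rw [show (c * w)⁻¹ * (y * (c * w) * y⁻¹) = w⁻¹ * (c⁻¹ * y * c) * w * y⁻¹ by group, mul_assoc c⁻¹, hc y hy,
      inv_mul_cancel_left, show w⁻¹ * y * w * y⁻¹ = w⁻¹ * (y * w * y⁻¹) by group] at a3
    have m1 := conj_mem_of_mem_normalizer (nW L hy) hw.1
    have a4 := mul_mem hw ((γ.inf_C F κ₁).le (mem_inf.2 ⟨mul_mem (inv_mem (om_le _ _ hw)) m1, a3⟩))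
    rw [mul_inv_cancel_left] at a4
    by_cases w1 : w = 1
    · rw [w1, mul_one]; exact hc
    · have := lL.om_eq (γ.syl e) a4 hw (by simpa using w1) w1
      exact (y0 (lL.mem_O hy hw.1 w1 (mul_inv_eq_iff_eq_mul.1 this))).elim
  refine ⟨h2, by_contra fun m0 => ?_⟩
  obtain ⟨a, ha, a0⟩ := γ.exists_a F κ
  obtain ⟨ρ, hρ, ρ1⟩ := κ.k.exists_om (γ.syl' e)
  have := h1 ρ hρ
  rw [conj_fix hy (h2 hρ)] at this
  exact ρ1 (γ.om_one F κ hx x0 ha a0 hρ (γ.farC F (κ.w m (by omega)) (γ.en F κ)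
    (κ.w.wk (m := 4) (by omega) le_rfl (by omega)) (by omega) m'' κ.k' this a ha).symm)

end Gr

end CF.QL
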