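import Cfsg.Agent.QL.B3

/-! The critical distance is one. -/

set_option autoImplicit false
set_option linter.unusedSectionVars false

namespace CF.QL

open Cfsg Subgroup CF.Loc
open CF.PLocal (thompson_le)
open scoped commutatorElement

variable {G : Type*} [Group G] [Finite G] {A A' B B' C K K' L L' M M' N S U X : Subgroup G} {a c g u v w x y : G}
  {r : Subgroup G → Subgroup G → Prop} {f : ℕ → Subgroup G} {n m i j : ℕ}

def CC (A B : Subgroup G) : Prop := ∀ K L, Cp A K → Cp B L → om K (A ⊓ B) ≤ 𝐂(L)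

def T2 (A : Subgroup G) : Prop := ∃ K K', Cp A K ∧ Cp A K' ∧ K ≠ K'

theorem CC.cj (h : CC A B) (g : G) : CC (cj[g] A) (cj[g] B) := fun K L k l => by
  have := cj_mono g (h _ _ (by simpa only [cj_inv_cj] using k.cj g⁻¹) (by simpa only [cj_inv_cj] using l.cj g⁻¹))
  rwa [cj_om, cj_centralizer, cj_cj_inv, cj_cj_inv, cj_inf] at this

theorem T2.cj (h : T2 A) (g : G) : T2 (cj[g] A) :=
  let ⟨_, _, a, b, c⟩ := h; ⟨_, _, a.cj g, b.cj g, fun e => c (cj_inj.1 e)⟩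

theorem T2.other (h : T2 A) (K : Subgroup G) : ∃ K', Cp A K' ∧ K' ≠ K := by
  obtain ⟨L, L', a, b, c⟩ := h
  by_cases e : L = K
  · exact ⟨L', b, e ▸ c.symm⟩
  · exact ⟨L, a, e⟩

structure EP (A B : Subgroup G) : Prop where
  l : CC A B
  r : CC B A
  a : T2 A
  b : T2 B

namespace Gr
variable (γ : Gr r)
include γ

theorem ep_next (e : r B A) (e' : r B C) (h : EP A B) : EP B C := by
  obtain ⟨g, hg, rfl⟩ := γ.nb e e'
  have a := h.r.cj g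
  have b := h.l.cj g
  rw [cj_eq_self_of_mem hg] at a b
  exact ⟨a, b, h.b, h.a.cj g⟩

theorem transport (e : r A B) (e' : r A B') (t : T2 A) (c : CC B A) (l : Cp B L) (hv : v ∈ om L (B ⊓ A)) :
    v ∈ 𝐂(𝐉(A ⊓ B')) := by
  obtain ⟨g, hg, rfl⟩ := γ.nb e e'
  obtain ⟨K, K', k, k', ne⟩ := t
  obtain ⟨x, hx, y, hy, s, hs, rfl⟩ := (γ.vt e).dec k k' ne (γ.syl e) hg
  rw [cj_mul, cj_eq_self_of_mem hs.2, ← cj_eq_self_of_mem (mul_mem (k.le hx) (k'.le hy)), ← cj_inf, ← cj_J,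
    ← cj_centralizer, mem_cj, mul_inv_rev, show y⁻¹ * x⁻¹ * v * (x * y) = y⁻¹ * (x⁻¹ * v * x) * y by group,
    conj_fix' hx (c _ _ l k hv), conj_fix' hy (c _ _ l k' hv), inf_comm]
  exact hv.2

theorem dec2 (e : r A B) (e' : r A B') (k : Cp A K) (k' : Cp A K') (ne : K ≠ K') (hv : v ∈ om K (A ⊓ B))
    (v1 : v ≠ 1) (h : v ∈ 𝐂(𝐉(A ⊓ B'))) : ∃ l ∈ K', cj[l] B = B' := by
  obtain ⟨g, hg, rfl⟩ := γ.nb e e'
  obtain ⟨x, hx, y, hy, s, hs, rfl⟩ := (γ.vt e).dec k k' ne (γ.syl e) hg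
  rw [cj_mul, cj_eq_self_of_mem hs.2] at h e' ⊢
  have := conj_mem_cj (x * y) hv
  rw [cj_om, cj_inf, cj_eq_self_of_mem (mul_mem (k.le hx) (k'.le hy)),
    cj_eq_self (mul_mem (le_normalizer hx) (k'.norm (γ.ll e) k hy)),
    show x * y * v * (x * y)⁻¹ = x * (y * v * y⁻¹) * x⁻¹ by group,
    conj_fix hy (k.W_le_C (γ.ll e) k' ne hv.1)] at this
  have := k.om_eq (γ.syl e') this ⟨hv.1, h⟩ (by simpa using v1) v1
  have := γ.O_le e (k.O_le_O (γ.ll e) (k.mem_O hx hv.1 v1 (mul_inv_eq_iff_eq_mul.1 this)))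
  refine ⟨x * y * x⁻¹, conj_mem_of_mem_normalizer (k.norm (γ.ll e) k' hx) hy, ?_⟩
  rw [cj_mul, cj_eq_self_of_mem (inv_mem this)]

theorem cc01 (F : Far r 3) (κ : Cr r f 3 K K') : CC (f 0) (f 1) ∧ T2 (f 0) := by
  obtain ⟨x, hx, x0⟩ := κ.k.exists_x
  obtain ⟨L, L', κ₁, -⟩ := γ.shift F κ hx x0 (by omega)
  obtain ⟨y, -, -, N, M', k, ne, -, c, -⟩ := γ.other (m := 1) F κ hx x0 κ₁
  have c' := (γ.big (m := 0) F κ hx x0 κ₁).1
  have e := γ.ex F κ hx x0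
  refine ⟨?_, _, _, k, κ.k, ne⟩
  have : CC (f 0) (cj[x] (f 1)) := fun K₀ L₀ k₀ l₀ => by
    obtain ⟨s, hs, rfl⟩ := (γ.vt e).tr _ (γ.syl e) _ _ κ₁.k l₀
    have : om (cj[s⁻¹] K₀) (cj[x] (f 1) ⊓ f 0) ≤ 𝐂(L) := by
      by_cases d : cj[s⁻¹] K₀ = K
      · rwa [d]
      · rwa [(γ.vt (γ.e0 F κ)).two _ _ _ (k₀.cj_mem (inv_mem hs.2)) κ.k k d ne]
    have := cj_mono s this
    rwa [cj_om, cj_cj_inv, cj_eq_self_of_mem hs, cj_centralizer, inf_comm] at this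
  have := this.cj x⁻¹
  rwa [cj_inv_cj, cj_eq_self_of_mem (inv_mem (κ.k.le hx))] at this

theorem four (F : Far r 3) (κ : Cr r f 3 K K') : False := by
  obtain ⟨x, hx, x0⟩ := κ.k.exists_x
  obtain ⟨L, L', κ₁, hc⟩ := γ.shift F κ hx x0 (by omega)
  have e := γ.ex F κ hx x0
  have e0 := κ.w 0 (by omega)
  have e1 := κ.w 1 (by omega)
  have e2 := κ.w 2 (by omega)
  have e3 := κ.w 3 (by omega)
  have sy := γ.symm
  have xf := cj_eq_self_of_mem (inv_mem (κ.k.le hx))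
  have lL : Cp (cj[x] (f 1)) L := κ₁.k
  have l' : Cp (f 3) L' := κ₁.k'
  have cm : CC (cj[x] (f 1)) (f 0) := (γ.cc01 F κ₁).1
  have tm : T2 (cj[x] (f 1)) := (γ.cc01 F κ₁).2
  have p01 : EP (f 0) (f 1) := ⟨(γ.cc01 F κ).1, by simpa only [cj_inv_cj, xf] using cm.cj x⁻¹, (γ.cc01 F κ).2,
    by simpa only [cj_inv_cj] using tm.cj x⁻¹⟩
  have p12 := γ.ep_next (sy _ _ e0) e1 p01
  have p23 := γ.ep_next (sy _ _ e1) e2 p12
  have p34 := γ.ep_next (sy _ _ e2) e3 p23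
  obtain ⟨Ls, ls, ne⟩ := tm.other L
  have n1 : Cp (f 1) (cj[x⁻¹] L) := by simpa only [cj_inv_cj] using lL.cj x⁻¹
  have n2 : Cp (f 1) (cj[x⁻¹] Ls) := by simpa only [cj_inv_cj] using ls.cj x⁻¹
  have ne' : cj[x⁻¹] L ≠ cj[x⁻¹] Ls := fun h => ne (cj_inj.1 h).symm
  obtain ⟨ρ₁, h₁, o₁⟩ := lL.exists_om (γ.syl e)
  obtain ⟨ρ₃, h₃, o₃⟩ := ls.exists_om (γ.syl e)
  have c₃ := cm _ _ ls κ.k h₃
  have a₁ : ρ₁ ∈ om (cj[x⁻¹] L) (f 1 ⊓ f 0) := inf_comm (f 0) (f 1) ▸ (γ.om_back' F κ hx x0 (hc h₁)).1 h₁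
  have a₃ : ρ₃ ∈ om (cj[x⁻¹] Ls) (f 1 ⊓ f 0) := inf_comm (f 0) (f 1) ▸ (γ.om_back' F κ hx x0 c₃).1 h₃
  have b₁' : ρ₁ ∈ om L' (f 3 ⊓ f 2) := (γ.om_eq F κ₁).le h₁
  have b₁ : ρ₁ ∈ 𝐂(𝐉(f 1 ⊓ f 2)) := inf_comm (f 2) (f 1) ▸ γ.transport e2 (sy _ _ e1) p23.a p23.r l' b₁'
  obtain ⟨l, hl, el⟩ := γ.dec2 (sy _ _ e0) e1 n1 n2 ne' a₁ o₁ b₁
  change cj[l] (f 0) = f 2 at el
  have lf := cj_eq_self_of_mem (n2.le hl)
  have wO : wOf Ls ≤ 𝐎[2](f 3) := by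
    by_contra d
    obtain ⟨L'', l'', d⟩ := (γ.vt e3).exists_not ((ls.le_wv.trans (γ.far F e
      (κ₁.w.wk (i := 0) (j := 3) (m := 3) (by omega) (by omega) (by omega)) le_rfl)).trans (γ.O_le e2)) (wOf_two _) d
    have κ' : Cr r (sh (cj[x] (f 1)) f) 3 Ls L'' := ⟨κ₁.w, ls, l'', d⟩
    have b₃ : ρ₃ ∈ 𝐂(𝐉(f 1 ⊓ f 2)) :=
      inf_comm (f 2) (f 1) ▸ γ.transport e2 (sy _ _ e1) p23.a p23.r l'' ((γ.om_eq F κ').le h₃)
    have := conj_mem_cj l a₃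
    rw [cj_om, cj_inf, lf, el, cj_eq_self_of_mem hl] at this
    have := n2.om_eq (γ.syl e1) this ⟨a₃.1, b₃⟩ (by simpa using o₃) o₃
    have := γ.O_le (sy _ _ e0) (n2.O_le_O (γ.ll e1) (n2.mem_O hl a₃.1 o₃ (mul_inv_eq_iff_eq_mul.1 this)))
    rw [cj_eq_self_of_mem this] at el
    exact κ.nc (γ.farC F e0 (sy _ _ e3) (m := 2) (el ▸ κ.w.wk (i := 2) (by omega) le_rfl le_rfl) (by omega) κ.k κ.k')
  obtain ⟨a, ha, a0⟩ := γ.exists_a F κ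
  have oS := γ.O_le_S F κ hx x0
  have oN := ls.le_N (γ.ll e) (oS.trans inf_le_left) h₃.1 o₃ (centralizer_anti (pCoreOf_le _ _) c₃)
  have ac := γ.farC F e1 (sy _ _ e3) (κ.w.wk (m := 3) (by omega) le_rfl le_rfl) le_rfl n2 κ.k' a₃.1 a ha
  obtain ⟨g1, g2⟩ := γ.gen2 F κ hx x0 (by omega) ha a0 ls.le_wv wO (oN.trans (normalizer_le_normalizer_wOf _))
    (normalizer_le_normalizer_wOf _ (ls.mem_N (γ.ll e) (γ.t_mem F κ hx x0 ha).1 h₃.1 o₃ (by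
      rw [mul_assoc, c₃ _ (inv_mem hx), ← mul_assoc, mul_assoc x, ac, ← mul_assoc, c₃ _ hx]; group)))
  have g3 : 𝐎[2](K) ≤ 𝐂(wOf Ls) := commutator_eq_bot_iff_le_centralizer'.1 (g2.resolve_right fun d => by
    have := card_le_card_of_le (d.ge.trans (ls.comm_le_om (γ.syl e) oS oN))
    rw [κ.k.card, ls.card_om (γ.syl e)] at this
    omega)
  obtain ⟨s, hs, es⟩ := (γ.vt e).tr _ (γ.syl e) _ _ ls lL
  have ks := κ.k.cj_mem hs.2
  have nk : cj[s] K ≠ K := fun d => γ.star (sy _ _ e) κ.k ((γ.vt e).le_O (oS.trans inf_le_left)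
    (isPGroup_pCoreOf _ _) fun M m => by
      by_cases d' : M = Ls
      · rwa [d']
      · have := cj_mono s g3
        rwa [cj_pCoreOf, d, cj_centralizer, cj_wOf, es, (γ.vt e).two _ _ _ lL ls m ne.symm d'] at this)
  have g4 := cj_mono (l * x⁻¹ * s) g1
  rw [cj_commutator, cj_wOf, cj_wOf, cj_mul, cj_mul, cj_mul, cj_mul, es,
    cj_eq_self (inv_mem (κ.k.norm (γ.ll e0) ks hx)), cj_eq_self (n2.norm (γ.ll e1) n1 hl)] at g4
  obtain ⟨ρ, hρ, o⟩ := κ.k.exists_om (γ.syl e0)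
  have k1 : Cp (f 2) (cj[l] K) := el ▸ κ.k.cj l
  have k2 : Cp (f 2) (cj[l] (cj[s] K)) := el ▸ ks.cj l
  have r1 := conj_mem_cj l hρ
  rw [cj_om, cj_inf, lf, el, conj_fix hl (p01.l _ _ κ.k n2 hρ)] at r1
  obtain ⟨k, hk, ek⟩ := γ.dec2 (sy _ _ e1) e2 k1 k2 (fun d => nk (cj_inj.1 d).symm) r1 o (inf_comm (f 3) (f 2) ▸
    γ.transport e3 (sy _ _ e2) p34.a p34.r κ.k' ((γ.om_eq F κ).le hρ))
  change cj[k] (f 1) = f 3 at ek
  have eL : L' = cj[k] (cj[x⁻¹] L) := l'.eq_of (γ.ll e3) (ek ▸ n1.cj k) b₁'.1 (by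
    rw [← cj_wOf, mem_cj, conj_fix' hk (p12.l _ _ n1 k2 ⟨a₁.1, b₁⟩)]; exact a₁.1) o₁
  refine κ₁.nc (le_centralizer_comm.1 ?_)
  rw [eL, ← cj_wOf, cj_le_iff_forall]
  intro w hw
  have c1 := le_centralizer_comm.1 (γ.farC F e e1
    (κ₁.w.wk (i := 0) (j := 2) (m := 2) (by omega) (by omega) (by omega)) (by omega) lL n1) hw
  have c2 := le_centralizer_comm.1 (γ.farC F e e2
    (κ₁.w.wk (i := 0) (j := 3) (m := 3) (by omega) (by omega) (by omega)) (by omega) lL k2)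
    (g4 (commutator_mem_commutator (inv_mem hw) hk))
  simpa [commutatorElement_def, mul_assoc] using mul_mem c1 c2

theorem exists_walk (w : Wk r n A B) : A = B ∨ ∃ m < n, ∃ f, Walk r f (m + 1) ∧ f 0 = A ∧ f (m + 1) = B := by
  have w' := w.symm γ.symm
  clear w
  induction w' with
  | refl => exact .inl rfl
  | @step n a b c _ e ih =>
    rcases ih with rfl | ⟨m, hm, f, h1, h2, h3⟩
    · exact .inr ⟨0, by omega, sh c fun _ => b, Walk.sh (n := 0) (fun _ h => by omega) (γ.symm _ _ e), rfl, rfl⟩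
    · exact .inr ⟨m + 1, by omega, sh c f, h1.sh (h2 ▸ γ.symm _ _ e), rfl, h3⟩

/-- the critical distance is one -/
theorem one (h : ∃ n, ¬ Far r n) : ∃ A B K L, r A B ∧ Cp A K ∧ Cp B L ∧ ¬ wOf K ≤ 𝐂(wOf L) := by
  classical
  have F0 : Far r 0 := fun A B w ⟨C, e⟩ => w.eq_of_zero ▸ wv_le_O (γ.ll e)
  obtain ⟨n, hn⟩ : ∃ n, Nat.find h = n + 1 := ⟨Nat.find h - 1, by
    have : Nat.find h ≠ 0 := fun e => Nat.find_spec h (e ▸ F0)
    omega⟩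
  have F : Far r n := not_not.1 (Nat.find_min h (by omega))
  have h1 := Nat.find_spec h
  rw [hn, Far] at h1
  push Not at h1
  obtain ⟨A, B, w, ⟨C, e⟩, c⟩ := h1
  rcases γ.exists_walk w with rfl | ⟨m, hm, f, w', rfl, rfl⟩
  · exact (c (wv_le_O (γ.ll e))).elim
  obtain rfl : m = n := by
    by_contra d
    exact c (γ.far F e (w'.wk (m := m + 1) (by omega) le_rfl (by omega)) (by omega))
  obtain ⟨K', k', d⟩ := (γ.vt (γ.symm _ _ (w' m (by omega)))).exists_not ((γ.far F e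
    (w'.wk (j := m) (m := m) (by omega) (by omega) (by omega)) le_rfl).trans (γ.O_le (w' m (by omega))))
      (wv_two (γ.ll e)) c
  obtain ⟨K, k, d⟩ : ∃ K, Cp (f 0) K ∧ ¬ wOf K ≤ 𝐂(wOf K') := by
    by_contra! d'
    exact d (wv_le d')
  have κ : Cr r f m K K' := ⟨w', k, k', d⟩
  obtain _ | _ | _ | _ | m := m
  · exact ⟨_, _, _, _, w' 0 (by omega), k, k', d⟩
  · exact (γ.two F κ).elim
  · exact (γ.three' F κ).elim
  · exact (γ.four F κ).elim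
  · obtain ⟨x, hx, x0⟩ := k.exists_x
    obtain ⟨L, L', κ₁, -⟩ := γ.shift F κ hx x0 (by omega)
    have := (γ.big (m := m + 1) F κ hx x0 κ₁).2
    omega

end Gr

end CF.QL
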