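import Cfsg.Agent.QL.B1

/-! Two adjacent components whose four-groups do not commute. -/

set_option autoImplicit false
set_option linter.unusedSectionVars false

namespace CF.QL

open Cfsg Subgroup CF.Loc
open CF.PLocal (thompson_le)
open scoped commutatorElement

variable {G : Type*} [Group G] [Finite G] {A B K K₂ L L₂ T U X : Subgroup G} {a b c d g s t u v w x y : G}

theorem mem_of_sq (ho : Odd (orderOf x)) (h : x * x ∈ X) : x ∈ X :=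
  mem_of_pow_mem_of_coprime (n := 2) (Nat.coprime_two_right.2 ho) (by rwa [pow_two])

theorem Cp.trans (k : Cp A K) (hT : IsSyl 2 T A) (ha : a ∈ wOf K) : ∃ x ∈ K, x * a * x⁻¹ ∈ om K T := by
  obtain ⟨x, hx, x1, o, x0, -⟩ : ∃ x ∈ K, x ≠ 1 ∧ Odd (orderOf x) ∧ x ∉ 𝐎[2](K) ∧ True :=
    let ⟨x, a, b, c, _⟩ := k.k3.exists_gen; ⟨x, a, fun e => c (e ▸ one_mem _), b, c, trivial⟩
  obtain ⟨w, hw, w1⟩ := k.exists_om hT
  have i : (om K T).relIndex (wOf K) = 2 := by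
    have := card_mul_relIndex (om_le K T)
    rw [k.card_om hT, k.card] at this
    omega
  have n : ∀ y ∈ K, y * w * y⁻¹ ∈ om K T → y ∈ 𝐎[2](K) := fun y hy e =>
    k.mem_O hy hw.1 w1 (mul_inv_eq_iff_eq_mul.1 (k.om_eq hT e hw (by simpa using w1) w1))
  have m : ∀ y ∈ K, y * w * y⁻¹ ∈ wOf K := fun y hy => conj_mem_of_mem_normalizer (nW K hy) hw.1
  by_cases h : a ∈ om K T
  · exact ⟨1, one_mem _, by simpa using h⟩
  have key : ∀ y ∈ K, y ∉ 𝐎[2](K) → a * (y * w * y⁻¹) = 1 ∨ a * (y * w * y⁻¹) = w := fun y hy y0 =>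
    (em _).imp_right fun e => k.om_eq hT (mul_mem_of_relIndex_two i ha (m y hy) h fun e => y0 (n y hy e)) hw e w1
  have fin : ∀ y ∈ K, a * (y * w * y⁻¹) = 1 → ∃ x ∈ K, x * a * x⁻¹ ∈ om K T := fun y hy e =>
    ⟨y⁻¹, inv_mem hy, by rw [eq_inv_of_mul_eq_one_left e]; simpa [mul_assoc] using hw⟩
  rcases key x hx x0 with e | e
  · exact fin x hx e
  rcases key x⁻¹ (inv_mem hx) (by rwa [inv_mem_iff]) with e' | e'
  · exact fin _ (inv_mem hx) e'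
  refine (x0 (mem_of_sq o (n _ (mul_mem hx hx) ?_))).elim
  have := mul_left_cancel (e.trans e'.symm)
  rwa [show x * x * w * (x * x)⁻¹ = x * (x * w * x⁻¹) * x⁻¹ by group, this,
    show x * (x⁻¹ * w * x⁻¹⁻¹) * x⁻¹ = w by group]

structure One (A B K L T : Subgroup G) : Prop where
  a : VT A
  b : VT B
  sa : IsSyl 2 T A
  sb : IsSyl 2 T B
  k : Cp A K
  l : Cp B L
  nc : ¬ wOf K ≤ 𝐂(wOf L)

namespace One
variable (h : One A B K L T)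
include h

theorem symm : One B A L K T := ⟨h.b, h.a, h.sb, h.sa, h.l, h.k, fun e => h.nc (le_centralizer_comm.1 e)⟩
theorem cj (hs : s ∈ T) : One A B (cj[s] K) (cj[s] L) T :=
  ⟨h.a, h.b, h.sa, h.sb, h.k.cj_mem (h.sa.le hs), h.l.cj_mem (h.sb.le hs), by
    rw [← cj_wOf, ← cj_wOf, ← cj_centralizer, cj_le_cj_iff]; exact h.nc⟩
theorem W_le : wOf K ≤ T := (h.k.W_le_J h.sa).trans (thompson_le _ _)
theorem W_N : wOf K ≤ 𝐍(L) := (h.k.W_le_J h.sa).trans (h.l.J_le h.sb)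
theorem comm_le : ⁅wOf K, wOf L⁆ ≤ om K T := h.k.comm_le_om h.sa h.symm.W_le h.symm.W_N
theorem om_eq : om K T = om L T := by
  obtain ⟨⟨u, hu⟩, u1⟩ := ne_bot_iff_exists_ne_one.1 fun e => h.nc (commutator_eq_bot_iff_le_centralizer.1 e)
  replace u1 : u ≠ 1 := fun e => u1 (Subtype.ext e)
  have hu' := h.symm.comm_le ((commutator_comm _ _).le hu)
  exact le_antisymm (h.k.om_le_of h.sa (h.comm_le hu) u1 hu') (h.l.om_le_of h.sb hu' u1 (h.comm_le hu))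
theorem om_le' : om K T ≤ wOf L := h.om_eq.le.trans (om_le _ _)
theorem inf_C : wOf K ⊓ 𝐂(wOf L) = om K T :=
  h.k.inf_C_eq h.sa h.symm.W_le h.symm.W_N h.symm.nc
theorem N_le : T ⊓ 𝐍(K) ≤ 𝐍(L) := by
  obtain ⟨w, hw, w1⟩ := h.k.exists_om h.sa
  exact h.l.le_N h.b.ll (inf_le_left.trans h.sb.le) (h.om_le' hw) w1
    (le_centralizer_comm.1 (h.k.le_C_om h.sa inf_le_left inf_le_right) hw)
theorem N_eq : T ⊓ 𝐍(K) = T ⊓ 𝐍(L) := le_antisymm (le_inf inf_le_left h.N_le) (le_inf inf_le_left h.symm.N_le)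
theorem R_le : T ⊓ 𝐂(wOf K) ≤ T ⊓ 𝐍(K) :=
  le_inf inf_le_left (h.k.le_N' h.a.ll (inf_le_left.trans h.sa.le) inf_le_right)
theorem O_le_R : 𝐎[2](K) ≤ T ⊓ 𝐂(wOf K) := le_inf ((h.k.O_le_O h.a.ll).trans h.sa.pCoreOf_le) (O_le_C_wOf K)

theorem R_comm : ⁅T ⊓ 𝐂(wOf K), K⁆ ≤ wOf K := by
  refine (le_secCent_iff.1 ?_).2
  nth_rewrite 1 [← h.k.comm_eq (wOf_two L) h.symm.W_N h.symm.nc]
  refine commutator_le_of_le_of_normalizes (le_secCent_iff.2 ⟨h.symm.W_N.trans (normalizer_le_normalizer_wOf K), ?_⟩)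
    (le_normalizer_secCent (le_normalizer_of_commutator_le le_rfl
      ((h.k.comm_le (h.R_le.trans inf_le_right) inf_le_right).trans h.O_le_R)) (nW K))
  rw [commutator_comm]
  exact (h.l.comm_le_om h.sb inf_le_left (h.R_le.trans h.N_le)).trans h.symm.om_le'

theorem K_eq (hx : x ∈ K) (x0 : x ∉ 𝐎[2](K)) : wOf K ⊔ zpowers x = K := by
  have l := sup_le (wOf_le_self K) (zpowers_le.2 hx)
  refine h.k.k3.eq_of_normal l ?_ fun e => x0 (e (mem_sup_right (mem_zpowers x)))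
  nth_rewrite 1 [← h.k.k3.sup_eq (zpowers_le.2 hx) (by rwa [zpowers_le])]
  exact sup_le (le_normalizer_iff_commutator_le_right.2 ((commutator_mono h.O_le_R l).trans
    (h.R_comm.trans le_sup_left))) (le_sup_right.trans le_normalizer)

theorem O_eq : 𝐎[2](K) = wOf K := by
  obtain ⟨x, hx, o, x0, -⟩ := h.k.k3.exists_gen
  refine le_antisymm (fun y hy => ?_) (wOf_le_O K)
  obtain ⟨a, ha, z, hz, rfl⟩ := (mem_sup_of_le_normalizer (zpowers_le.2 (nW K hx))).1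
    ((h.K_eq hx x0).ge (pCoreOf_le _ _ hy))
  rw [eq_one_of_coprime_of_mem (isPGroup_pCoreOf 2 K) ((mul_mem_cancel_left (wOf_le_O K ha)).1 hy)
    (Nat.coprime_two_right.2 (o.of_dvd_nat (orderOf_dvd_of_mem_zpowers hz))), mul_one]
  exact ha

theorem R_dec (hu : u ∈ T ⊓ 𝐂(wOf K)) : ∃ a ∈ wOf K, ∃ c ∈ T ⊓ 𝐂(K), u = a * c := by
  obtain ⟨x, hx, o, x0, -⟩ := h.k.k3.exists_gen
  have n : K ≤ 𝐍(T ⊓ 𝐂(wOf K)) :=
    le_normalizer_of_commutator_le le_rfl (h.R_comm.trans (le_inf h.W_le (wOf_ab K)))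
  have e := CF.Coprime.commutator_sup_centralizer (zpowers x) (T ⊓ 𝐂(wOf K)) (zpowers_le.2 (n hx)) (by
    obtain ⟨k, hk⟩ := (h.sa.isPGroup.to_le (inf_le_left : T ⊓ 𝐂(wOf K) ≤ T)).exists_card_eq
    rw [hk, Nat.card_zpowers]
    exact (Nat.coprime_two_right.2 o).pow_right k) (.inl (CF.BG.cyc_zpowers x).sol)
  have : T ⊓ 𝐂(wOf K) ≤ wOf K ⊔ (T ⊓ 𝐂(K)) := e.ge.trans (sup_le_sup
    ((commutator_mono le_rfl (zpowers_le.2 hx)).trans h.R_comm) (by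
      nth_rewrite 2 [← h.K_eq hx x0]
      rw [CF.Loc.centralizer_sup, inf_assoc]))
  obtain ⟨a, ha, c, hc, e⟩ := (mem_sup_of_le_normalizer (inf_le_right.trans
    (centralizer_le_normalizer_of_le (wOf_le_self K)))).1 (this hu)
  exact ⟨a, ha, c, hc, e.symm⟩

theorem exists_b : ∃ b ∈ wOf L, b ∉ 𝐂(wOf K) := SetLike.not_le_iff_exists.1 h.symm.nc

theorem N_dec (ht : t ∈ T ⊓ 𝐍(K)) : ∃ b ∈ wOf L, b * t ∈ 𝐂(wOf K) := by
  by_cases c : t ∈ 𝐂(wOf K)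
  · exact ⟨1, one_mem _, by rwa [one_mul]⟩
  obtain ⟨b, hb, b0⟩ := h.exists_b
  refine ⟨b, hb, mul_mem_of_relIndex_two (V := T ⊓ 𝐍(K)) ?_ ⟨h.symm.W_le hb, h.symm.W_N hb⟩ ht b0 c⟩
  have h1 := card_le_two_mul_cent_four h.k.card (wOf_ab K) (h.sa.isPGroup.to_le (inf_le_left : T ⊓ 𝐍(K) ≤ T))
    (inf_le_right.trans (normalizer_le_normalizer_wOf K))
  have h2 := card_inf_mul_relIndex 𝐂(wOf K) (T ⊓ 𝐍(K))
  have h3 : (𝐂(wOf K)).relIndex (T ⊓ 𝐍(K)) ≠ 1 := fun e => c (relIndex_eq_one.1 e ht)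
  have h4 : (𝐂(wOf K)).relIndex (T ⊓ 𝐍(K)) ≠ 0 := index_ne_zero_of_finite
  rw [inf_comm] at h2
  have h5 : 0 < Nat.card ↥((T ⊓ 𝐍(K)) ⊓ 𝐂(wOf K)) := Nat.card_pos
  have := Nat.le_of_mul_le_mul_left (h2.le.trans (h1.trans (mul_comm _ _).le)) h5
  omega

theorem C_le : T ⊓ 𝐂(K) ≤ 𝐂(wOf L) := by
  have n : T ⊓ 𝐂(K) ≤ T ⊓ 𝐍(K) := inf_le_inf_left _ (centralizer_le_normalizer _)
  rw [← commutator_eq_bot_iff_le_centralizer', eq_bot_iff, ← h.k.fix]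
  exact le_inf ((h.l.comm_le_om h.sb inf_le_left (n.trans h.N_le)).trans h.symm.om_le')
    (commutator_le_of_le_of_normalizes inf_le_right (le_normalizer_centralizer h.symm.W_N))

theorem om_le_C : om K T ≤ 𝐂(wOf K ⊔ wOf L) := by
  rw [CF.Loc.centralizer_sup]
  exact le_inf ((om_le _ _).trans (wOf_ab K)) (h.om_le'.trans (wOf_ab L))

theorem red (hu : u ∈ T ⊓ 𝐂(wOf K)) : ∃ g, ∃ a ∈ wOf K, g * u * g⁻¹ = a * u ∧ a * u ∈ 𝐂(wOf K ⊔ wOf L) := by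
  obtain ⟨a, ha, c, hc, rfl⟩ := h.R_dec hu
  obtain ⟨x, hx, e⟩ := h.k.trans h.sa ha
  refine ⟨x, x * a * x⁻¹ * a⁻¹, mul_mem e.1 (inv_mem ha), ?_, ?_⟩
  · rw [mul_assoc x, mul_assoc a, ← hc.2 _ (inv_mem hx)]; group
  · rw [show x * a * x⁻¹ * a⁻¹ * (a * c) = x * a * x⁻¹ * c by group]
    refine mul_mem (h.om_le_C e) ?_
    rw [CF.Loc.centralizer_sup]
    exact ⟨centralizer_anti (wOf_le_self K) hc.2, h.C_le hc⟩

theorem X_dec (hx : x ∈ wOf K ⊔ wOf L) : ∃ a ∈ wOf K, ∃ b ∈ wOf L, a * b = x :=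
  (mem_sup_of_le_normalizer (h.symm.W_N.trans (normalizer_le_normalizer_wOf K))).1 hx

theorem X_inf : (wOf K ⊔ wOf L) ⊓ 𝐂(wOf K ⊔ wOf L) ≤ om K T := by
  rintro x ⟨hx, hc⟩
  obtain ⟨a, ha, b, hb, rfl⟩ := h.X_dec hx
  rw [CF.Loc.centralizer_sup] at hc
  exact mul_mem (h.inf_C.le ⟨ha, (mul_mem_cancel_right (wOf_ab L hb)).1 hc.2⟩)
    (h.om_eq.ge (h.symm.inf_C.le ⟨hb, (mul_mem_cancel_left (wOf_ab K ha)).1 hc.1⟩))

theorem X_sq (hx : x ∈ wOf K ⊔ wOf L) (e : x * x = 1) : x ∈ wOf K ∨ x ∈ wOf L := by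
  obtain ⟨a, ha, b, hb, rfl⟩ := h.X_dec hx
  by_cases c : b ∈ 𝐂(wOf K)
  · exact .inl (mul_mem ha (h.symm.om_le' (h.symm.inf_C.le ⟨hb, c⟩)))
  refine .inr (mul_mem (h.om_le' (h.k.mem_om h.sa (h.symm.W_le hb) (h.symm.W_N hb) c ha ?_)) hb)
  rw [← inv_eq_of_mul_eq_one_right e, mul_inv_rev, inv_eq_of_mul_eq_one_right (wOf_sq ha),
    inv_eq_of_mul_eq_one_right (wOf_sq hb)]

theorem eq_of (h' : One A B K₂ L T) : K₂ = K := by
  obtain ⟨w, hw, w1⟩ := h.k.exists_om h.sa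
  exact h'.k.eq_of h.a.ll h.k (h'.om_eq.ge (h.om_eq.le hw)).1 hw.1 w1

theorem XC (h' : One A B K₂ L₂ T) (e : K₂ ≠ K) : wOf K₂ ⊔ wOf L₂ ≤ 𝐂(wOf K ⊔ wOf L) := by
  have e' : L₂ ≠ L := fun d => e (h.eq_of (d ▸ h'))
  rw [CF.Loc.centralizer_sup]
  refine sup_le (le_inf ((h'.k.W_le_C h.a.ll h.k e).trans (centralizer_anti (wOf_le_self K)))
    (by_contra fun c => e (h.eq_of ⟨h.a, h.b, h.sa, h.sb, h'.k, h.l, c⟩))) (le_inf (by_contra fun c =>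
      e' (h.symm.eq_of ⟨h.b, h.a, h.sb, h.sa, h'.l, h.k, c⟩))
    ((h'.l.W_le_C h.b.ll h.l e').trans (centralizer_anti (wOf_le_self L))))

theorem X_le : wOf K ⊔ wOf L ≤ T ⊓ 𝐍(K) := sup_le (le_inf h.W_le ((wOf_le_self K).trans le_normalizer))
  (le_inf h.symm.W_le h.symm.W_N)

theorem exists_ab : ∃ a ∈ wOf K, ∃ b ∈ wOf L, ⁅a, b⁆ ≠ 1 := by
  by_contra! e
  exact h.nc fun a ha b hb => (commutatorElement_eq_one_iff_mul_comm.1 (e a ha b hb)).symm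

end One

end CF.QL
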