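import Cfsg.Agent.QL.B5
import Cfsg.Agent.Loc.Xfer

/-! Critical distance one: the structure of the Sylow subgroup. -/

set_option autoImplicit false
set_option linter.unusedSectionVars false

namespace CF.QL

open Cfsg Subgroup CF.Loc
open CF.PLocal (thompson_le mem_thompson_of_centralizer)
open scoped commutatorElement

variable {G : Type*} [Group G] [Finite G] {A B K K₂ L L₂ T U X : Subgroup G} {a b c d g s t u v w x y z : G}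

/-- the part of `O₂(A)` centralising all components -/
def dd (A : Subgroup G) : Subgroup G := 𝐎[2](A) ⊓ ⨅ K : {K // Cp A K}, 𝐂(K.1)

theorem mem_dd : d ∈ dd A ↔ d ∈ 𝐎[2](A) ∧ ∀ K, Cp A K → d ∈ 𝐂(K) := by
  rw [dd, mem_inf, mem_iInf, Subtype.forall]

theorem n_dd (A : Subgroup G) : 𝐍(A) ≤ 𝐍(dd A) := fun g hg => mem_normalizer_of_conj_mem fun d hd =>
  mem_dd.2 ⟨conj_mem_of_mem_normalizer (normalizer_le_normalizer_pCoreOf 2 A hg) (mem_dd.1 hd).1, fun K k => by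
    have := conj_mem_cj g ((mem_dd.1 hd).2 _ (cj_eq_self (inv_mem hg) ▸ k.cj g⁻¹))
    rwa [cj_centralizer, cj_cj_inv] at this⟩

theorem Cp.dd_le (k : Cp A K) : dd A ≤ 𝐂(K) := fun _ hd => (mem_dd.1 hd).2 K k

structure Two (A B K L K₂ L₂ T : Subgroup G) : Prop where
  h₁ : One A B K L T
  h₂ : One A B K₂ L₂ T
  cov : ∀ K', Cp A K' → K' = K ∨ K' = K₂
  cov' : ∀ L', Cp B L' → L' = L ∨ L' = L₂
  top : IsSyl 2 T ⊤
  cz : 𝐂(𝐙(T)) ≤ T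
  nA : ∀ g ∈ 𝐍(𝐉(T)), Odd (orderOf g) → ∀ K, Cp A K → g ∈ 𝐍(K)
  nB : ∀ g ∈ 𝐍(𝐉(T)), Odd (orderOf g) → ∀ K, Cp B K → g ∈ 𝐍(K)
  no : ∀ X ≤ T, A ≤ 𝐍(X) → B ≤ 𝐍(X) → X = ⊥
  perf : commutator G = ⊤

namespace Two
variable (h : Two A B K L K₂ L₂ T)
include h

theorem symm : Two B A L K L₂ K₂ T :=
  ⟨h.h₁.symm, h.h₂.symm, h.cov', h.cov, h.top, h.cz, h.nB, h.nA, fun X a b c => h.no X a c b, h.perf⟩
theorem swap : Two A B K₂ L₂ K L T :=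
  ⟨h.h₂, h.h₁, fun K k => (h.cov K k).symm, fun K k => (h.cov' K k).symm, h.top, h.cz, h.nA, h.nB, h.no, h.perf⟩
theorem ll : LL A := h.h₁.a.ll

theorem Y_eq : wv A ⊔ wv B = (wOf K ⊔ wOf L) ⊔ (wOf K₂ ⊔ wOf L₂) := by
  refine le_antisymm (sup_le (wv_le fun K' k => ?_) (wv_le fun K' k => ?_))
    (sup_le (sup_le_sup h.h₁.k.le_wv h.h₁.l.le_wv) (sup_le_sup h.h₂.k.le_wv h.h₂.l.le_wv))
  · rcases h.cov K' k with rfl | rfl
    exacts [le_sup_left.trans le_sup_left, le_sup_left.trans le_sup_right]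
  · rcases h.cov' K' k with rfl | rfl
    exacts [le_sup_right.trans le_sup_left, le_sup_right.trans le_sup_right]

theorem X_le : wOf K ⊔ wOf L ≤ wv A ⊔ wv B := sup_le_sup h.h₁.k.le_wv h.h₁.l.le_wv
theorem nY : T ≤ 𝐍(wv A ⊔ wv B) := le_normalizer_sup (h.h₁.sa.le.trans (n_wv A)) (h.h₁.sb.le.trans (n_wv B))
theorem nD : T ≤ 𝐍(dd A) := (h.h₁.sa.le.trans le_normalizer).trans (n_dd A)
theorem D_le : dd A ≤ T := inf_le_left.trans h.h₁.sa.pCoreOf_le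
theorem D_le_N : dd A ≤ T ⊓ 𝐍(K) := le_inf h.D_le (h.h₁.k.dd_le.trans (centralizer_le_normalizer _))

theorem N12 : T ⊓ 𝐍(K) ≤ T ⊓ 𝐍(K₂) := fun t ht => ⟨ht.1, cj_eq_self_iff.1 <| by
  rcases h.cov _ (h.h₂.k.cj_mem (h.h₁.sa.le ht.1)) with e | e
  · rw [e, cj_inj.1 (e.trans (cj_eq_self ht.2).symm)]
  · exact e⟩

theorem Y_le : wv A ⊔ wv B ≤ T ⊓ 𝐍(K) := h.Y_eq ▸ sup_le h.h₁.X_le (h.h₂.X_le.trans h.swap.N12)

theorem mem_D (ht : t ∈ T) (h1 : t ∈ 𝐂(K)) (h2 : t ∈ 𝐂(K₂)) : t ∈ dd A := by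
  have c : ∀ K', Cp A K' → t ∈ 𝐂(K') := fun K' k => (h.cov K' k).elim (· ▸ h1) (· ▸ h2)
  exact mem_dd.2 ⟨zpowers_le.1 (h.h₁.a.le_O (zpowers_le.2 (h.h₁.sa.le ht)) (h.top.isPGroup.to_le (zpowers_le.2 ht))
    fun K' k => zpowers_le.2 (centralizer_anti (wOf_le_self K') (c K' k))), c⟩

theorem decT (ht : t ∈ T ⊓ 𝐍(K)) : ∃ y ∈ wv A ⊔ wv B, y * t ∈ dd A := by
  have l1 := le_sup_left.trans h.X_le
  have l2 := le_sup_right.trans h.X_le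
  obtain ⟨b, hb, e⟩ := h.h₁.N_dec ht
  have m := mul_mem (h.Y_le (l2 hb)) ht
  by_cases d : K₂ = K
  · obtain ⟨a, ha, c, hc, e⟩ := h.h₁.R_dec ⟨m.1, e⟩
    exact ⟨a⁻¹ * b, mul_mem (inv_mem (l1 ha)) (l2 hb), by
      rw [mul_assoc, e, inv_mul_cancel_left]; exact h.mem_D hc.1 hc.2 (d ▸ hc.2)⟩
  have l3 := le_sup_left.trans h.swap.X_le
  have l4 := le_sup_right.trans h.swap.X_le
  obtain ⟨b', hb', e'⟩ := h.h₂.N_dec (h.N12 m)
  obtain ⟨a, ha, c, hc, e1⟩ := h.h₁.R_dec ⟨mul_mem (h.Y_le (l4 hb')).1 m.1,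
    mul_mem (centralizer_anti le_sup_left (h.h₁.XC h.h₂ d (mem_sup_right hb'))) e⟩
  obtain ⟨a', ha', c', hc', e2⟩ := h.h₂.R_dec ⟨hc.1, (mul_mem_cancel_left (centralizer_anti le_sup_left
    (h.h₂.XC h.h₁ (Ne.symm d) (mem_sup_left ha)))).1 (e1 ▸ e')⟩
  refine ⟨a'⁻¹ * a⁻¹ * b' * b, mul_mem (mul_mem (mul_mem (inv_mem (l3 ha')) (inv_mem (l1 ha))) (l4 hb')) (l2 hb), ?_⟩
  rw [show a'⁻¹ * a⁻¹ * b' * b * t = a'⁻¹ * (a⁻¹ * (b' * (b * t))) by group, e1, inv_mul_cancel_left, e2,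
    inv_mul_cancel_left]
  exact h.mem_D hc'.1 ((mul_mem_cancel_left (h.h₂.k.W_le_C h.ll h.h₁.k d ha')).1 (e2 ▸ hc.2)) hc'.2

theorem DC : dd A ≤ 𝐂(wv A ⊔ wv B) := by
  rw [h.Y_eq, CF.Loc.centralizer_sup, CF.Loc.centralizer_sup, CF.Loc.centralizer_sup]
  exact le_inf (le_inf (h.h₁.k.dd_le.trans (centralizer_anti (wOf_le_self _))) ((le_inf h.D_le h.h₁.k.dd_le).trans h.h₁.C_le))
    (le_inf (h.h₂.k.dd_le.trans (centralizer_anti (wOf_le_self _))) ((le_inf h.D_le h.h₂.k.dd_le).trans h.h₂.C_le))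

theorem Y_dec (d : K₂ ≠ K) (hy : y ∈ wv A ⊔ wv B) : ∃ u ∈ wOf K ⊔ wOf L, ∃ v ∈ wOf K₂ ⊔ wOf L₂, u * v = y :=
  (mem_sup_of_le_normalizer ((h.h₁.XC h.h₂ d).trans (centralizer_le_normalizer _))).1 (h.Y_eq.le hy)

theorem Y_eq' (d : K₂ = K) : wv A ⊔ wv B = wOf K ⊔ wOf L := by
  subst d
  rw [h.Y_eq, h.h₁.symm.eq_of h.h₂.symm, sup_idem]

theorem YC (hy : y ∈ wv A ⊔ wv B) (hc : y ∈ 𝐂(wv A ⊔ wv B)) : ∃ u ∈ om K T, ∃ v ∈ om K₂ T, y = u * v := by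
  by_cases d : K₂ = K
  · rw [h.Y_eq' d] at hy hc
    exact ⟨y, h.h₁.X_inf ⟨hy, hc⟩, 1, one_mem _, (mul_one y).symm⟩
  obtain ⟨u, hu, v, hv, rfl⟩ := h.Y_dec d hy
  exact ⟨u, h.h₁.X_inf ⟨hu, (mul_mem_cancel_right (h.h₁.XC h.h₂ d hv)).1 (centralizer_anti h.X_le hc)⟩,
    v, h.h₂.X_inf ⟨hv, (mul_mem_cancel_left (h.h₂.XC h.h₁ (Ne.symm d) hu)).1 (centralizer_anti h.swap.X_le hc)⟩, rfl⟩

theorem DY (hd : d ∈ dd A) (hy : d ∈ wv A ⊔ wv B) : d = 1 := by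
  obtain ⟨u, hu, v, hv, rfl⟩ := h.YC hy (h.DC hd)
  by_cases e : K₂ = K
  · exact h.h₁.k.eq_one (mul_mem hu.1 (e ▸ hv.1)) (h.h₁.k.dd_le hd)
  obtain rfl := h.h₁.k.eq_one hu.1 ((mul_mem_cancel_right (h.h₂.k.W_le_C h.ll h.h₁.k e hv.1)).1 (h.h₁.k.dd_le hd))
  exact h.h₂.k.eq_one (mul_mem (one_mem _) hv.1) (h.h₂.k.dd_le hd)

theorem DD : dd A ⊓ dd B = ⊥ :=
  have n := le_normalizer_inf h.nD h.symm.nD
  h.no _ (inf_le_left.trans h.D_le) (h.h₁.a.gen T h.h₁.sa _ n fun _ k =>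
    (le_centralizer_comm.1 (inf_le_left.trans k.dd_le)).trans (centralizer_le_normalizer _))
    (h.h₁.b.gen T h.h₁.sb _ n fun _ k =>
      (le_centralizer_comm.1 (inf_le_right.trans k.dd_le)).trans (centralizer_le_normalizer _))

theorem DD' (h1 : d ∈ dd A) (h2 : d ∈ dd B) : d = 1 := mem_bot.1 (h.DD.le ⟨h1, h2⟩)

theorem decT' (ht : t ∈ T ⊓ 𝐍(K)) : ∃ y ∈ wv A ⊔ wv B, y * t ∈ dd B :=
  sup_comm (wv B) _ ▸ h.symm.decT (h.h₁.N_eq.le ht)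

theorem DC' : dd B ≤ 𝐂(wv A ⊔ wv B) := sup_comm (wv B) _ ▸ h.symm.DC

theorem D_split (hd : d ∈ dd A) : ∃ u ∈ om K T, ∃ v ∈ om K₂ T, u * v * d ∈ dd B := by
  obtain ⟨y, hy, e⟩ := h.decT' (h.D_le_N hd)
  obtain ⟨u, hu, v, hv, rfl⟩ := h.YC hy ((mul_mem_cancel_right (h.DC hd)).1 (h.DC' e))
  exact ⟨u, hu, v, hv, e⟩

theorem D_cent : dd A ≤ 𝐂(T ⊓ 𝐍(K)) := le_centralizer_comm.1 fun t ht => by
  obtain ⟨y, hy, e⟩ := h.decT' ht
  refine (mul_mem_cancel_left (le_centralizer_comm.1 h.DC hy)).1 (commutator_eq_bot_iff_le_centralizer'.1 ?_ e)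
  exact eq_bot_iff.2 ((commutator_le_inf_of_normalize (h.symm.D_le.trans h.nD) (h.D_le.trans h.symm.nD)).trans h.DD.le)

theorem om_mem (hu : u ∈ om K T) (hv : v ∈ om K₂ T) : u * v ∈ wv A :=
  mul_mem (h.h₁.k.le_wv hu.1) (h.h₂.k.le_wv hv.1)

theorem wv_sq (hw : w ∈ wv A) : w * w = 1 :=
  (pow_two w).symm.trans (mem_omegaOneCenter.1 (wv_le_V h.ll hw)).2.2

theorem D_sq (hd : d ∈ dd A) : d * d = 1 := by
  obtain ⟨u, hu, v, hv, e⟩ := h.D_split hd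
  have m := h.om_mem hu hv
  refine h.DD' (mul_mem hd hd) ?_
  have := mul_mem e e
  rwa [mul_assoc, ← mul_assoc d, ← h.DC hd _ (mem_sup_left m), mul_assoc (u * v), ← mul_assoc (u * v), h.wv_sq m,
    one_mul] at this

theorem Z_le : 𝐙(T) ≤ T ⊓ 𝐍(K) := (le_inf (omegaOneCenter_le _ _)
  ((omegaOneCenter_le_centralizer _ _).trans (centralizer_anti h.h₁.W_le))).trans h.h₁.R_le

theorem odd_C (hg : g ∈ 𝐍(𝐉(T))) (o : Odd (orderOf g)) : g ∈ 𝐂(om K T) := by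
  have k := h.h₁.k
  have n := h.nA g hg o K k
  exact zpowers_le.1 (le_centralizer_of_card_two (k.card_om h.h₁.sa) (zpowers_le.2 (zpowers_le.1 (le_normalizer_inf
    (zpowers_le.2 (normalizer_le_normalizer_wOf K n)) (le_normalizer_centralizer (zpowers_le.2 hg))))))

theorem D_conj (hg : g ∈ 𝐍(𝐉(T))) (o : Odd (orderOf g)) (hd : d ∈ dd A) : g * d * g⁻¹ ∈ dd A := by
  have cJ : d ∈ 𝐂(𝐉(T)) := centralizer_anti (le_inf (thompson_le _ _) (h.h₁.k.J_le h.h₁.sa)) (h.D_cent hd)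
  have c : ∀ {K}, Cp A K → g * d * g⁻¹ ∈ 𝐂(K) := fun k =>
    conj_mem_of_mem_normalizer (le_normalizer_centralizer (zpowers_le.2 (h.nA g hg o _ k)) (mem_zpowers g)) (k.dd_le hd)
  exact h.mem_D (thompson_le _ _ (conj_mem_of_mem_normalizer hg (mem_thompson_of_centralizer (h.D_le hd) cJ
    ((pow_two d).trans (h.D_sq hd))))) (c h.h₁.k) (c h.h₂.k)

theorem NJ : 𝐍(𝐉(T)) ≤ T := by
  have n : T ≤ 𝐍(𝐉(T)) := le_normalizer.trans (CF.PLocal.normalizer_le_normalizer_thompson 2 T)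
  rw [← (h.top.mono n le_top).pResidualOf_sup]
  refine sup_le (pResidualOf_le_iff.2 fun g hg o => h.cz fun z hz => ?_) le_rfl
  replace o := Nat.coprime_two_right.1 o
  have c : ∀ u ∈ om K T, ∀ v ∈ om K₂ T, u * v ∈ 𝐂(zpowers g) := fun u hu v hv =>
    mul_mem (mem_C_zp.2 (h.odd_C hg o u hu)) (mem_C_zp.2 (h.swap.odd_C hg o v hv))
  have cD : ∀ d ∈ dd A, d ∈ 𝐂(zpowers g) := fun d hd => by
    obtain ⟨u, hu, v, hv, e⟩ := h.D_split hd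
    have m := mul_mem (h.D_conj hg o hd) (inv_mem hd)
    have m' := mul_mem (h.symm.D_conj hg o e) (inv_mem e)
    rw [← mul_assoc g, ← mem_C_zp.1 (c u hu v hv), show u * v * g * d * g⁻¹ * (u * v * d)⁻¹ =
      u * v * (g * d * g⁻¹ * d⁻¹) * (u * v)⁻¹ by group, h.DC m _ (mem_sup_left (h.om_mem hu hv)),
      mul_inv_cancel_right] at m'
    exact mem_C_zp.2 (mul_inv_eq_iff_eq_mul.1 (mul_inv_eq_one.1 (h.DD' m m'))).symm
  obtain ⟨y, hy, e⟩ := h.decT (h.Z_le hz)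
  obtain ⟨u, hu, v, hv, rfl⟩ := h.YC hy ((mul_mem_cancel_right (centralizer_anti (h.Y_le.trans inf_le_left)
    (omegaOneCenter_le_centralizer _ _ hz))).1 (h.DC e))
  exact mem_C_zp.1 ((mul_mem_cancel_left (c u hu v hv)).1 (cD _ e))

theorem J_wc (e : cj[g] 𝐉(T) ≤ T) : g ∈ T := by
  rw [cj_J] at e
  exact h.NJ (cj_eq_self_iff.1 ((cj_J g T).trans
    ((h.top.cj_of_mem (mem_top g)).J_eq h.top.isPGroup le_top e).symm))

theorem exists_s : ∃ s ∈ T, T ≤ (T ⊓ 𝐍(K)) ⊔ zpowers s := by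
  by_cases c : T ≤ 𝐍(K)
  · exact ⟨1, one_mem _, (le_inf le_rfl c).trans le_sup_left⟩
  obtain ⟨s, hs, s0⟩ := SetLike.not_le_iff_exists.1 c
  refine ⟨s, hs, fun t ht => ?_⟩
  by_cases d : t ∈ 𝐍(K)
  · exact mem_sup_left ⟨ht, d⟩
  · exact (mul_mem_cancel_left (inv_mem (mem_sup_right (mem_zpowers s)))).1 (mem_sup_left (mem_inf.2 ⟨mul_mem (inv_mem hs) ht,
      h.h₁.a.mul_mem_N h.h₁.k (h.h₁.sa.le hs) (h.h₁.sa.le ht) s0 d⟩))

theorem odd_idx : ¬ 2 ∣ T.index := relIndex_top_right T ▸ h.top.not_dvd_relIndex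

theorem D_bot : dd A = ⊥ := by
  have n : T ≤ 𝐍((wv A ⊔ wv B) ⊔ ⁅dd A, T⁆) := le_normalizer_sup h.nY (CF.BG.norm_comm_right _ _)
  have lY := h.Y_le.trans inf_le_left
  have c1 : ⁅(wv A ⊔ wv B) ⊔ dd A, T⁆ ≤ (wv A ⊔ wv B) ⊔ ⁅dd A, T⁆ := commutator_sup_left_le (lY.trans n)
    (h.D_le.trans n) ((commutator_le_left_of_le_normalizer h.nY).trans le_sup_left) le_sup_right
  have c : ⁅T, T⁆ ≤ (wv A ⊔ wv B) ⊔ ⁅dd A, T⁆ := by
    obtain ⟨s, hs, e⟩ := h.exists_s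
    have l := sup_le lY h.D_le
    have z := zpowers_le.2 hs
    replace e : T ≤ ((wv A ⊔ wv B) ⊔ dd A) ⊔ zpowers s := e.trans (sup_le_sup_right (fun t ht =>
      let ⟨_, a, b⟩ := h.decT ht; (mul_mem_cancel_left (mem_sup_left a)).1 (mem_sup_right b)) _)
    refine (commutator_mono e le_rfl).trans (commutator_sup_left_le (l.trans n) (z.trans n) c1 ?_)
    rw [commutator_comm]
    exact (commutator_mono e le_rfl).trans (commutator_sup_left_le (l.trans n) (z.trans n)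
      ((commutator_mono le_rfl z).trans c1)
      ((commutator_eq_bot_iff_le_centralizer.2 (CF.BG.abel_zpowers s)).le.trans bot_le))
  refine eq_bot_of_le_commutator h.top.isPGroup h.D_le le_rfl fun d hd => ?_
  have cJ : d ∈ 𝐂(𝐉(T)) := centralizer_anti (le_inf (thompson_le _ _) (h.h₁.k.J_le h.h₁.sa)) (h.D_cent hd)
  have := extremal_transfer_ab h.odd_idx c (h.D_sq hd) (h.perf ▸ mem_top d) (h.D_le hd) (isPGroup_J h.top.isPGroup)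
    (mem_thompson_of_centralizer (h.D_le hd) cJ ((pow_two d).trans (h.D_sq hd)))
    (fun j hj => mem_centralizer_singleton_iff.2 (cJ j hj)) fun g e => mem_sup_right (by
      simpa [commutatorElement_def, mul_assoc] using commutator_mem_commutator (inv_mem hd) (h.J_wc e))
  have l := commutator_le_left_of_le_normalizer h.nD
  obtain ⟨y, hy, e, he, rfl⟩ := (mem_sup_of_le_normalizer ((l.trans h.D_le).trans h.nY)).1 this
  rwa [h.DY ((mul_mem_cancel_right (l he)).1 hd) hy, one_mul]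

theorem T1_le : T ⊓ 𝐍(K) ≤ wv A ⊔ wv B := fun t ht => by
  obtain ⟨y, hy, e⟩ := h.decT ht
  rw [h.D_bot, mem_bot] at e
  exact (mul_mem_cancel_left hy).1 (e ▸ one_mem _)

theorem Z_dec (hz : z ∈ 𝐙(T)) : ∃ u ∈ om K T, ∃ v ∈ om K₂ T, z = u * v :=
  h.YC (h.T1_le (h.Z_le hz)) (centralizer_anti (h.Y_le.trans inf_le_left) (omegaOneCenter_le_centralizer _ _ hz))

end Two

end CF.QL
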