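import Cfsg.Agent.QL.B6
import Cfsg.Agent.Invol.Dihedral

/-! Critical distance one: the Sylow subgroup is a dihedral involution centraliser. -/

set_option autoImplicit false
set_option linter.unusedSectionVars false

namespace CF.QL

open Cfsg Subgroup CF.Loc
open CF.PLocal (thompson_le mem_thompson_of_centralizer)
open scoped commutatorElement

variable {G : Type*} [Group G] [Finite G] {A B K K₂ L L₂ T U X : Subgroup G} {a b c g s t u v w x y z : G}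

theorem One.red' (h : One A B K L T) (hu : u ∈ T) (c : u ∈ 𝐂(wOf K) ∨ u ∈ 𝐂(wOf L)) :
    ∃ g, ∃ a ∈ wOf K ⊔ wOf L, g * u * g⁻¹ = a * u ∧ a * u ∈ 𝐂(wOf K ⊔ wOf L) := by
  rcases c with c | c
  · obtain ⟨g, a, ha, e⟩ := h.red ⟨hu, c⟩
    exact ⟨g, a, mem_sup_left ha, e⟩
  · obtain ⟨g, a, ha, e⟩ := h.symm.red ⟨hu, c⟩
    exact ⟨g, a, mem_sup_right ha, sup_comm (wOf L) _ ▸ e⟩

theorem One.W_le_of (h : One A B K L T) (ha : a ∈ wOf K) (a0 : a ∉ om K T) (h1 : om K T ≤ X) (h2 : a ∈ X) :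
    wOf K ≤ X := by
  refine (sup_zpowers_eq_of_relIndex_prime ?_ (om_le K T) ha a0).ge.trans (sup_le h1 (zpowers_le.2 h2))
  have := card_mul_relIndex (om_le K T)
  rw [h.k.card_om h.sa, h.k.card] at this
  rw [show (om K T).relIndex (wOf K) = 2 by omega]
  exact Nat.prime_two

namespace Two
variable (h : Two A B K L K₂ L₂ T)
include h

theorem dih (e : T ≤ 𝐍(K)) : ∃ z : G, orderOf z = 2 ∧ centralizer ({z} : Set G) = T ∧
    Nonempty (T ≃* DihedralGroup 4) := by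
  obtain rfl : K₂ = K := by
    obtain ⟨s, hs, rfl⟩ := h.h₁.a.tr T h.h₁.sa _ _ h.h₁.k h.h₂.k
    exact cj_eq_self (e hs)
  obtain ⟨a, ha, b, hb, w1⟩ := h.h₁.exists_ab
  have hw := h.h₁.comm_le (commutator_mem_commutator ha hb)
  have o : ∀ {K} {x : G}, x ∈ wOf K → x ≠ 1 → orderOf x = 2 := fun hx x1 =>
    orderOf_eq_prime ((pow_two _).trans (wOf_sq hx)) x1
  refine ⟨_, o hw.1 w1, le_antisymm (le_trans ?_ h.cz) fun t ht => mem_centralizer_singleton_iff.2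
    (h.h₁.k.le_C_om h.h₁.sa le_rfl e ht _ hw).symm, ?_⟩
  · rw [← centralizer_zpowers]
    refine centralizer_anti fun z hz => ?_
    obtain ⟨u, hu, v, hv, rfl⟩ := h.Z_dec hz
    exact h.h₁.k.om_le_of h.h₁.sa hw w1 (mem_zpowers _) (mul_mem hu hv)
  have a0 : a ∉ om K₂ T := fun c => w1 (commutatorElement_eq_one_iff_mul_comm.2 (wOf_ab L (h.h₁.om_le' c) b hb).symm)
  have b0 : b ∉ om L T := fun c => w1 (commutatorElement_eq_one_iff_mul_comm.2 (wOf_ab K₂ (h.h₁.symm.om_le' c) a ha))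
  have e2 : (a * b) ^ 2 = ⁅a, b⁆ := by
    simp only [pow_two, commutatorElement_def, inv_eq_of_mul_eq_one_right (wOf_sq ha),
      inv_eq_of_mul_eq_one_right (wOf_sq hb), mul_assoc]
  have o4 : orderOf (a * b) = 4 := orderOf_eq_prime_pow (p := 2) (n := 1) (by rwa [pow_one, e2])
    (by rw [pow_succ, pow_one, pow_mul, e2, pow_two, wOf_sq hw.1])
  obtain ⟨φ⟩ := CF.Invol.nonempty_closure_pair_equiv_dihedral (o ha fun c => a0 (c ▸ one_mem _))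
    (o hb fun c => b0 (c ▸ one_mem _))
  have ma : a ∈ closure ({a, b} : Set G) := subset_closure (by simp)
  have mb : b ∈ closure ({a, b} : Set G) := subset_closure (by simp)
  have l := h.h₁.k.om_le_of h.h₁.sa hw w1 (e2 ▸ pow_mem (mul_mem ma mb) 2)
  have : T = closure {a, b} := le_antisymm ((le_inf le_rfl e).trans (h.T1_le.trans ((h.Y_eq' rfl).le.trans
    (sup_le (h.h₁.W_le_of ha a0 l ma) (h.h₁.symm.W_le_of hb b0 (h.h₁.om_eq ▸ l) mb)))))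
    ((closure_le _).2 (Set.pair_subset (h.h₁.W_le ha) (h.h₁.symm.W_le hb)))
  exact ⟨(MulEquiv.subgroupCongr this).trans (o4 ▸ φ)⟩

theorem YY : ⁅wv A ⊔ wv B, wv A ⊔ wv B⁆ ≤ 𝐂(𝐉(T)) := by
  have n : T ≤ 𝐍(𝐂(𝐉(T))) :=
    le_normalizer_centralizer (le_normalizer.trans (CF.PLocal.normalizer_le_normalizer_thompson 2 T))
  have a := (le_sup_left.trans (h.Y_le.trans inf_le_left)).trans n
  have b := (le_sup_right.trans (h.Y_le.trans inf_le_left)).trans n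
  have z : ∀ {A}, LL A → ⁅wv A, wv A⁆ ≤ 𝐂(𝐉(T)) := fun l =>
    (commutator_eq_bot_iff_le_centralizer.2 ((wv_le_O l).trans (O_le_C_wv l))).le.trans bot_le
  have c : ⁅wv A, wv B⁆ ≤ 𝐂(𝐉(T)) := (le_secCent_iff.1 (wv_le fun L' l => le_secCent_iff.2 ⟨l.le_wv.trans b, by
    rw [commutator_comm]
    exact (le_secCent_iff.1 (wv_le fun K' k => le_secCent_iff.2 ⟨k.le_wv.trans a, (l.comm_le_om h.h₁.sb
      ((k.W_le_J h.h₁.sa).trans (thompson_le _ _)) ((k.W_le_J h.h₁.sa).trans (l.J_le h.h₁.sb))).trans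
        inf_le_right⟩)).2⟩)).2
  exact commutator_sup_left_le a b (commutator_sup_right_le a b (z h.ll) c)
    (commutator_sup_right_le a b ((commutator_comm _ _).le.trans c) (z h.symm.ll))

variable (d : K₂ ≠ K)
include d

theorem X12 (h1 : u ∈ wOf K ⊔ wOf L) (h2 : u ∈ wOf K₂ ⊔ wOf L₂) : u = 1 := by_contra fun c =>
  d (h.h₂.k.eq_of h.ll h.h₁.k (h.h₂.X_inf ⟨h2, h.h₂.XC h.h₁ d.symm h1⟩).1 (h.h₁.X_inf ⟨h1, h.h₁.XC h.h₂ d h2⟩).1 c)

theorem KK : K ⊓ K₂ = ⊥ := eq_bot_iff.2 fun y hy => mem_bot.2 (h.X12 d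
  (mem_sup_left (h.h₁.O_eq.le (h.h₁.k.inf_C_le ⟨hy.1, le_centralizer_comm.1 (h.h₁.k.W_le_C h.ll h.h₂.k d.symm) hy.2⟩)))
  (mem_sup_left (h.h₂.O_eq.le (h.h₂.k.inf_C_le ⟨hy.2, le_centralizer_comm.1 (h.h₂.k.W_le_C h.ll h.h₁.k d) hy.1⟩))))

theorem conj_om (hu : u ∈ T ⊓ 𝐍(K)) (e : u * u = 1) : ∃ g, ∃ v ∈ om K T, ∃ w ∈ om K₂ T, g * u * g⁻¹ = v * w := by
  obtain ⟨x, hx, y, hy, rfl⟩ := h.Y_dec d (h.T1_le hu)
  have c := h.h₁.XC h.h₂ d
  have c' := h.h₂.XC h.h₁ d.symm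
  rw [mul_assoc, ← mul_assoc y, ← c hy x hx, mul_assoc, ← mul_assoc] at e
  have x2 := h.X12 d (mul_mem hx hx) (by rw [eq_inv_of_mul_eq_one_left e]; exact inv_mem (mul_mem hy hy))
  rw [x2, one_mul] at e
  obtain ⟨g, a, ha, e1, c1⟩ := h.h₁.red' hu.1 ((h.h₁.X_sq hx x2).imp
    (fun m => mul_mem (wOf_ab _ m) (centralizer_anti le_sup_left (c hy)))
    fun m => mul_mem (wOf_ab _ m) (centralizer_anti le_sup_right (c hy)))
  obtain ⟨g', a', ha', e2, c2⟩ := h.h₂.red' (mul_mem (h.h₁.X_le ha).1 hu.1) ((h.h₂.X_sq hy e).imp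
    (fun m => mul_mem (centralizer_anti le_sup_left (c' ha)) (mul_mem (centralizer_anti le_sup_left (c' hx)) (wOf_ab _ m)))
    fun m => mul_mem (centralizer_anti le_sup_right (c' ha))
      (mul_mem (centralizer_anti le_sup_right (c' hx)) (wOf_ab _ m)))
  obtain ⟨v, hv, w, hw, e3⟩ := h.YC (mul_mem (h.swap.X_le ha') (mul_mem (h.X_le ha) (h.T1_le hu))) (by
    rw [h.Y_eq, CF.Loc.centralizer_sup]; exact ⟨mul_mem (c ha') c1, c2⟩)
  exact ⟨g' * g, v, hv, w, hw, by rw [← e3, ← e2, ← e1]; group⟩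

section
variable (hs : s ∈ T) (s0 : s ∉ 𝐍(K))
include hs s0

theorem cj_K : cj[s] K = K₂ := (h.cov _ (h.h₁.k.cj_mem (h.h₁.sa.le hs))).resolve_left fun e => s0 (cj_eq_self_iff.1 e)
theorem cj_X : cj[s] (wOf K ⊔ wOf L) = wOf K₂ ⊔ wOf L₂ := by
  have := (h.h₁.cj hs).symm
  rw [h.cj_K d hs s0] at this
  rw [cj_sup, cj_wOf, cj_wOf, h.h₂.symm.eq_of this, h.cj_K d hs s0]
theorem s0' : s ∉ 𝐍(K₂) := fun e => s0 (h.swap.N12 ⟨hs, e⟩).2
theorem cj_om' (hw : w ∈ om K T) : s * w * s⁻¹ ∈ om K₂ T := by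
  have := conj_mem_cj s hw
  rwa [cj_om, h.cj_K d hs s0, cj_eq_self_of_mem hs] at this

theorem Cz (hw : w ∈ om K T) (w1 : w ≠ 1) : centralizer ({w * (s * w * s⁻¹)} : Set G) ≤ T := by
  refine le_trans ?_ h.cz
  rw [← centralizer_zpowers]
  refine centralizer_anti fun z hz => ?_
  obtain ⟨u, hu, v, hv, rfl⟩ := h.Z_dec hz
  have c := omegaOneCenter_le_centralizer _ _ hz s hs
  by_cases u1 : u = 1 <;> by_cases v1 : v = 1
  · rw [u1, v1, mul_one]; exact one_mem _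
  · exact (h.s0' d hs s0 (h.h₂.k.mem_N h.ll (h.h₁.sa.le hs) hv.1 v1 (by simpa [u1] using c))).elim
  · exact (s0 (h.h₁.k.mem_N h.ll (h.h₁.sa.le hs) hu.1 u1 (by simpa [v1] using c))).elim
  · rw [h.h₁.k.om_eq h.h₁.sa hu hw u1 w1, h.h₂.k.om_eq h.h₁.sa hv (h.cj_om' d hs s0 hw) v1 (by simpa using w1)]
    exact mem_zpowers _

theorem idx : (T ⊓ 𝐍(K)).relIndex T = 2 := by
  rw [inf_relIndex_left]
  refine relIndex_eq_two_iff.2 ⟨s, hs, fun b hb => ?_⟩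
  by_cases c : b ∈ 𝐍(K)
  · exact .inr ⟨c, fun e => s0 ((mul_mem_cancel_left c).1 e)⟩
  · have := h.h₁.a.mul_mem_N h.h₁.k (inv_mem (h.h₁.sa.le hb)) (h.h₁.sa.le hs) (by rwa [inv_mem_iff]) s0
    exact .inl ⟨by rwa [inv_inv] at this, c⟩

theorem not_z (s2 : s * s = 1) (hw : w ∈ om K T) (w1 : w ≠ 1) (e : g * s * g⁻¹ = w * (s * w * s⁻¹)) : False := by
  obtain ⟨x, hx, o, x0, -⟩ := h.h₁.k.k3.exists_gen
  have m : s * x * s⁻¹ ∈ K₂ := h.cj_K d hs s0 ▸ conj_mem_cj s hx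
  have c : Commute x (s * x * s⁻¹) := commutatorElement_eq_one_iff_commute.1 (mem_bot.1 (h.KK d ▸
    commutator_le_inf_of_normalize (h.h₂.k.norm h.ll h.h₁.k) (h.h₁.k.norm h.ll h.h₂.k) (commutator_mem_commutator hx m)))
  have i := inv_eq_of_mul_eq_one_right s2
  have c2 : x * (s * x * s⁻¹) ∈ centralizer ({s} : Set G) := mem_centralizer_singleton_iff.2 (by
    nth_rewrite 2 [c.eq]
    rw [i, show s * (s * x * s * x) = s * s * x * s * x by group, s2, mul_assoc x, mul_assoc _ s s, s2]; group)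
  have := conj_mem_cj g c2
  rw [cj_centralizer_singleton, e] at this
  obtain ⟨k, hk⟩ := isPGroup_iff_forall.1 h.top.isPGroup _ (h.Cz d hs s0 hw w1 this)
  rw [conj_pow, mul_inv_eq_one, mul_eq_left, c.mul_pow] at hk
  have : x ^ 2 ^ k ∈ K ⊓ K₂ :=
    mem_inf.2 ⟨pow_mem hx _, by rw [eq_inv_of_mul_eq_one_left hk]; exact inv_mem (pow_mem m _)⟩
  rw [h.KK d] at this
  exact x0 (mem_bot.1 (mem_of_pow_mem_of_coprime ((Nat.coprime_two_right.2 o).pow_right k) this) ▸ one_mem _)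

theorem not_w (s2 : s * s = 1) (hw : w ∈ om K T) (w1 : w ≠ 1) (e : g * s * g⁻¹ = w) : False := by
  have k := h.h₁.k
  have l1 : T ⊓ 𝐍(K) ≤ centralizer {w} := fun t ht =>
    mem_centralizer_singleton_iff.2 (k.le_C_om h.h₁.sa inf_le_left inf_le_right ht w hw).symm
  have sy : IsSyl 2 (T ⊓ 𝐍(K)) (centralizer {w}) := isSyl_of_normalizer (by
    have : centralizer {w} ⊓ 𝐍(T ⊓ 𝐍(K)) = T ⊓ 𝐍(K) := le_antisymm (fun t ht => by
      have := h.NJ (J_eq_of_le (le_inf (thompson_le _ _) (k.J_le h.h₁.sa)) inf_le_left ▸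
        CF.PLocal.normalizer_le_normalizer_thompson 2 _ ht.2)
      exact ⟨this, k.mem_N h.ll (h.h₁.sa.le this) hw.1 w1 (mem_centralizer_singleton_iff.1 ht.1)⟩)
      (le_inf l1 le_normalizer)
    rw [this]; exact isSyl_self (h.top.isPGroup.to_le inf_le_left))
  obtain ⟨c, hc, lc⟩ := sy.exists_cj_le (Q := cj[g] (T ⊓ centralizer {s}))
    (isPGroup_cj g (h.top.isPGroup.to_le inf_le_left)) (by
      rw [← e, ← cj_centralizer_singleton]; exact cj_mono g inf_le_right)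
  rw [← cj_mul] at lc
  have cm := h.h₁.XC h.h₂ d
  have i := inv_eq_of_mul_eq_one_right s2
  have mX : ∀ {x}, x ∈ wOf K ⊔ wOf L → s * x * s⁻¹ ∈ wOf K₂ ⊔ wOf L₂ := fun hx => h.cj_X d hs s0 ▸ conj_mem_cj s hx
  have m : ∀ {x}, x ∈ wOf K ⊔ wOf L → x * (s * x * s⁻¹) ∈ T ⊓ centralizer {s} := fun {x} hx =>
    ⟨mul_mem (h.h₁.X_le hx).1 (h.h₂.X_le (mX hx)).1, mem_centralizer_singleton_iff.2 (by
      nth_rewrite 2 [cm (mX hx) x hx]
      rw [i, show s * (s * x * s * x) = s * s * x * s * x by group, s2, mul_assoc x, mul_assoc _ s s, s2]; group)⟩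
  obtain ⟨a, ha, b, hb, n1⟩ := h.h₁.exists_ab
  have ew := k.om_eq h.h₁.sa (h.h₁.comm_le (commutator_mem_commutator ha hb)) hw n1 w1
  replace ha := mem_sup_left (T := wOf L) ha
  replace hb := mem_sup_right (S := wOf K) hb
  have ez : ⁅a * (s * a * s⁻¹), b * (s * b * s⁻¹)⁆ = w * (s * w * s⁻¹) := by
    rw [← ew, conjugate_commutatorElement]
    have c1 := cm (mX ha)
    have c2 := cm (mX hb)
    generalize s * a * s⁻¹ = a' at c1 ⊢
    generalize s * b * s⁻¹ = b' at c2 ⊢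
    have p1 : Commute b a' := c1 b hb
    have p2 : Commute a a' := c1 a ha
    have p3 : Commute b b' := c2 b hb
    have p4 : Commute a b' := c2 a ha
    simp only [commutatorElement_def, mul_inv_rev]
    calc a * a' * (b * b') * (a'⁻¹ * a⁻¹) * (b'⁻¹ * b⁻¹)
        = a * (a' * b) * ((b' * a'⁻¹) * a⁻¹) * (b'⁻¹ * b⁻¹) := by group
      _ = a * (b * a') * (a⁻¹ * (b' * a'⁻¹)) * (b⁻¹ * b'⁻¹) := by
        rw [p1.eq, (p4.mul_right p2.inv_right).inv_left.eq, p3.inv_inv.eq]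
      _ = a * b * (a' * a⁻¹) * ((b' * a'⁻¹) * b⁻¹) * b'⁻¹ := by group
      _ = a * b * (a⁻¹ * a') * (b⁻¹ * (b' * a'⁻¹)) * b'⁻¹ := by
        rw [p2.inv_left.eq, (p3.mul_right p1.inv_right).inv_left.eq]
      _ = a * b * a⁻¹ * (a' * b⁻¹) * (b' * a'⁻¹ * b'⁻¹) := by group
      _ = _ := by rw [← p1.inv_left.eq]; group
  have := h.YY (commutator_mem_commutator (h.T1_le (lc (conj_mem_cj _ (m ha)))) (h.T1_le (lc (conj_mem_cj _ (m hb)))))
  rw [← conjugate_commutatorElement, ez] at this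
  have t : (c * g)⁻¹ ∈ T := h.J_wc (cj_le_iff.2 fun j hj => by
    rw [inv_inv]
    refine cj_mono _ (h.Cz d hs s0 hw w1) ?_
    rw [cj_centralizer_singleton]
    exact mem_centralizer_singleton_iff.2 (this j hj))
  have := conj_mem_of_mem_normalizer (le_normalizer_of_relIndex_two' inf_le_left (h.idx d hs s0) t)
    (h.h₁.X_le (mem_sup_left hw.1))
  rw [mul_inv_rev, mul_assoc g⁻¹, ← (mem_centralizer_singleton_iff.1 (inv_mem hc)).symm, ← e] at this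
  exact s0 (by simpa [mul_assoc] using this.2)

end

theorem exists_inv : ∃ s ∈ T, s ∉ 𝐍(K) ∧ s * s = 1 := by
  obtain ⟨s, hs, e⟩ := h.h₁.a.tr T h.h₁.sa _ _ h.h₁.k h.h₂.k
  have s0 : s ∉ 𝐍(K) := fun c => d (e.symm.trans (cj_eq_self c))
  obtain ⟨x, hx, y, hy, e⟩ := h.Y_dec d (h.T1_le (sq_mem_of_relIndex_two (h.idx d hs s0) hs))
  have m1 : s * x * s⁻¹ ∈ wOf K₂ ⊔ wOf L₂ := h.cj_X d hs s0 ▸ conj_mem_cj s hx
  have m2 : s * y * s⁻¹ ∈ wOf K ⊔ wOf L := h.swap.cj_X d.symm hs (h.s0' d hs s0) ▸ conj_mem_cj s hy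
  have c := h.h₁.XC h.h₂ d
  have e1 : x⁻¹ * (s * y * s⁻¹) = y * (s * x * s⁻¹)⁻¹ := by
    rw [inv_mul_eq_iff_eq_mul, ← mul_assoc x, eq_mul_inv_iff_mul_eq, c m1 _ m2, e,
      show s * x * s⁻¹ * (s * y * s⁻¹) = s * (x * y) * s⁻¹ by group, e]; group
  have e2 := mul_inv_eq_one.1 (h.X12 d (e1 ▸ mul_mem (inv_mem hx) m2) (mul_mem hy (inv_mem m1)))
  have := mem_inf.1 (inv_mem (h.h₁.X_le hx))
  refine ⟨s * x⁻¹, mul_mem hs this.1, fun c => s0 ((mul_mem_cancel_right this.2).1 c), ?_⟩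
  rw [show s * x⁻¹ * (s * x⁻¹) = (s * x * s⁻¹)⁻¹ * (s * s) * x⁻¹ by group, ← e, ← e2, c hy x hx]; group

theorem false : False := by
  obtain ⟨s, hs, s0, s2⟩ := h.exists_inv d
  have i := h.idx d hs s0
  refine s0 (extremal_transfer_ab h.odd_idx (commutator_le_of_relIndex_two i
    (le_normalizer_of_relIndex_two' inf_le_left i) le_normalizer) s2 (h.perf ▸ mem_top s) hs
    (h.top.isPGroup.to_le (zpowers_le.2 hs)) (mem_zpowers s) (zpowers_le.2 (mem_centralizer_singleton_iff.2 rfl))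
    fun g e => ?_).2
  have hu : g⁻¹ * s * g ∈ T := by simpa using e (conj_mem_cj g⁻¹ (mem_zpowers s))
  by_cases c : g⁻¹ * s * g ∈ 𝐍(K)
  · obtain ⟨k, v, hv, w, hw, ek⟩ := h.conj_om d ⟨hu, c⟩ (by
      rw [show g⁻¹ * s * g * (g⁻¹ * s * g) = g⁻¹ * (s * s) * g by group, s2]; group)
    replace ek : k * g⁻¹ * s * (k * g⁻¹)⁻¹ = v * w := by rw [← ek]; group
    exfalso
    by_cases v1 : v = 1 <;> by_cases w1 : w = 1
    · rw [v1, w1, mul_one, mul_inv_eq_one, mul_eq_left] at ek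
      exact s0 (ek ▸ one_mem _)
    · exact h.swap.not_w d.symm hs (h.s0' d hs s0) s2 hw w1 (by rw [ek, v1, one_mul])
    · exact h.not_w d hs s0 s2 hv v1 (by rw [ek, w1, mul_one])
    · exact h.not_z d hs s0 s2 hv v1 (by
        rw [ek, h.h₂.k.om_eq h.h₁.sa hw (h.cj_om' d hs s0 hv) w1 (by simpa using v1)])
  · exact mem_inf.2 ⟨mul_mem (inv_mem hs) hu, h.h₁.a.mul_mem_N h.h₁.k (h.h₁.sa.le hs) (h.h₁.sa.le hu) s0 c⟩

end Two

theorem One.main (h : One A B K L T) (top : IsSyl 2 T ⊤) (cz : 𝐂(𝐙(T)) ≤ T) 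
    (nA : ∀ g ∈ 𝐍(𝐉(T)), Odd (orderOf g) → ∀ K, Cp A K → g ∈ 𝐍(K))
    (nB : ∀ g ∈ 𝐍(𝐉(T)), Odd (orderOf g) → ∀ K, Cp B K → g ∈ 𝐍(K)) (no : ∀ X ≤ T, A ≤ 𝐍(X) → B ≤ 𝐍(X) → X = ⊥) (perf : commutator G = ⊤) :
    ∃ z : G, orderOf z = 2 ∧ centralizer ({z} : Set G) = T ∧ Nonempty (T ≃* DihedralGroup 4) := by
  by_cases c : T ≤ 𝐍(K)
  · refine Two.dih (K₂ := K) (L₂ := L) ⟨h, h, fun K' k => .inl ?_, fun L' l => .inl ?_, top, cz, nA, nB, no, perf⟩ c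
    · obtain ⟨s, hs, rfl⟩ := h.a.tr T h.sa _ _ h.k k
      exact cj_eq_self (c hs)
    · obtain ⟨s, hs, rfl⟩ := h.b.tr T h.sb _ _ h.l l
      exact cj_eq_self (h.N_le ⟨hs, c hs⟩)
  obtain ⟨s, hs, s0⟩ := SetLike.not_le_iff_exists.1 c
  have d : cj[s] K ≠ K := fun e => s0 (cj_eq_self_iff.1 e)
  have d' : cj[s] L ≠ L := fun e => s0 (h.symm.N_le ⟨hs, cj_eq_self_iff.1 e⟩)
  exact (Two.false ⟨h, h.cj hs, fun K' k => (em _).imp_right fun e => h.a.two _ _ _ k h.k (h.cj hs).k e d,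
    fun K' k => (em _).imp_right fun e => h.b.two _ _ _ k h.l (h.cj hs).l e d', top, cz, nA, nB, no, perf⟩ d).elim

end CF.QL
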